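import Cfsg.Agent.Lib.Cusp.Rec
import Cfsg.Agent.Lib.MatConj.Semi

/-!
# The number of cuspidal characters of a general linear group
-/

set_option autoImplicit false
set_option linter.unusedSectionVars false

namespace CfsgLib.Cusp

open Cfsg CfsgLib.Char CfsgLib.MatConj Finset Matrix
open scoped ComplexConjugate BigOperators

variable {F : Type*} [Field F] [Fintype F] [DecidableEq F] {ι κ m m' k k' : Type} [Fintype ι]
  [DecidableEq ι] [Fintype κ] [DecidableEq κ] [Fintype m] [DecidableEq m] [Fintype m']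
  [DecidableEq m'] [Fintype k] [DecidableEq k] [Fintype k'] [DecidableEq k'] {a b n : ℕ}

/-- Multisets of given total degree. -/
abbrev MS {C : Type*} (d : C → ℕ) (n : ℕ) : Type _ := {S : Multiset C // (S.map d).sum = n}

theorem MS_split {C : Type*} {d : C → ℕ} (hd : ∀ c, d c ≠ 0) (n : ℕ) :
    Nonempty ({c // d c = n} ⊕ MS (fun c : {c // d c < n} => d c) n ≃ MS d n) := by
  refine ⟨.ofBijective (Sum.elim (fun c => ⟨{c.1}, by simp [c.2]⟩) fun S => ⟨S.1.map Subtype.val, by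
    rw [Multiset.map_map]; exact S.2⟩) ⟨?_, fun ⟨S, hS⟩ => ?_⟩⟩
  · have h : ∀ (c : {c // d c = n}) (S : Multiset {c // d c < n}), {c.1} ≠ S.map Subtype.val := fun c S h => by
      obtain ⟨x, -, hx⟩ := Multiset.mem_map.1 (h ▸ Multiset.mem_singleton_self c.1)
      exact x.2.ne (hx ▸ c.2)
    rintro (c | S) (c' | S') h' <;> replace h' := congrArg Subtype.val h'
    · exact congrArg _ (Subtype.ext (Multiset.singleton_inj.1 h'))
    · exact absurd h' (h _ _)
    · exact absurd h'.symm (h _ _)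
    · exact congrArg _ (Subtype.ext (Multiset.map_injective Subtype.val_injective h'))
  by_cases h : ∀ c ∈ S, d c < n
  · lift S to Multiset {c // d c < n} using h
    exact ⟨.inr ⟨S, by simpa using hS⟩, rfl⟩
  obtain ⟨c, hc, h⟩ : ∃ c ∈ S, n ≤ d c := by simpa using h
  obtain ⟨T, rfl⟩ := Multiset.exists_cons_of_mem hc
  rw [Multiset.map_cons, Multiset.sum_cons] at hS
  obtain rfl : T = 0 := Multiset.eq_zero_of_forall_notMem fun x hx =>
    hd x (Multiset.sum_eq_zero_iff.1 (by omega) _ (Multiset.mem_map_of_mem d hx))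
  exact ⟨.inl ⟨c, by omega⟩, rfl⟩

theorem MS_compare.{v} {C C' : Type v} {d : C → ℕ} {d' : C' → ℕ} (hd : ∀ c, d c ≠ 0) (hd' : ∀ c, d' c ≠ 0)
    (h : ∀ n, 0 < Nat.card (MS d (n + 1)) ∧ Nat.card (MS d (n + 1)) = Nat.card (MS d' (n + 1)))
    (n : ℕ) : Nonempty ({c // d c = n} ≃ {c // d' c = n}) := by
  induction n using Nat.strong_induction_on with | _ n ih =>
  obtain _ | n := n
  · have : IsEmpty {c // d c = 0} := ⟨fun c => hd _ c.2⟩
    have : IsEmpty {c // d' c = 0} := ⟨fun c => hd' _ c.2⟩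
    exact ⟨Equiv.equivOfIsEmpty _ _⟩
  obtain ⟨E, hE⟩ : ∃ E : {c // d c < n + 1} ≃ {c // d' c < n + 1}, ∀ c, d' (E c) = d c :=
    have e : ∀ {C : Type v} (d : C → ℕ) (m : Fin (n + 1)), {c : {c // d c < n + 1} //
        (⟨d c.1, c.2⟩ : Fin (n + 1)) = m} ≃ {c // d c = m} := fun d m => (Equiv.subtypeEquivRight
      fun _ => Fin.ext_iff).trans (Equiv.subtypeSubtypeEquivSubtype (q := fun c => d c = m)
        fun h => h.trans_lt m.2)
    have e' := fun m => (e d m).trans ((ih m m.2).some.trans (e d' m).symm)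
    ⟨_, fun c => congrArg Fin.val (Equiv.ofFiberEquiv_map (g := fun c : {c // d' c < n + 1} =>
      (⟨d' c.1, c.2⟩ : Fin (n + 1))) e' c)⟩
  have h1 : Nat.card (MS (fun c : {c // d c < n + 1} => d c) (n + 1)) =
      Nat.card (MS (fun c : {c // d' c < n + 1} => d' c) (n + 1)) := Nat.card_congr
    (Equiv.subtypeEquiv ⟨Multiset.map E, Multiset.map E.symm, fun S => by simp, fun S => by simp⟩
      fun S => by simp [hE])
  obtain ⟨e⟩ := MS_split hd (n + 1)
  obtain ⟨e'⟩ := MS_split hd' (n + 1)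
  have := (Nat.finite_of_card_ne_zero (h n).1.ne').of_equiv _ e.symm
  have := (Nat.finite_of_card_ne_zero ((h n).2 ▸ (h n).1.ne')).of_equiv _ e'.symm
  have h2 := (h n).2
  have := Finite.sum_left (α := {c // d c = n + 1}) (MS (fun c : {c // d c < n + 1} => d c) (n + 1))
  have := Finite.sum_left (α := {c // d' c = n + 1}) (MS (fun c : {c // d' c < n + 1} => d' c) (n + 1))
  have := Finite.sum_right {c // d c = n + 1} (β := MS (fun c : {c // d c < n + 1} => d c) (n + 1))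
  have := Finite.sum_right {c // d' c = n + 1} (β := MS (fun c : {c // d' c < n + 1} => d' c) (n + 1))
  rw [← Nat.card_congr e, ← Nat.card_congr e', Nat.card_sum, Nat.card_sum, h1, add_left_inj] at h2
  exact Finite.card_eq.1 h2

variable {ψ : AddChar F ℂ} (hψ : ψ.IsPrimitive)
include hψ

theorem W_nat (χ : Irr F) : ∃ r : ℕ, W ψ χ.2.1 = r :=
  (W_irr ψ hψ χ.2.2).elim (⟨0, ·.trans Nat.cast_zero.symm⟩) (⟨1, ·.trans Nat.cast_one.symm⟩)

theorem R.gen {α β χ : Irr F} (h : R α β χ) (h' : W ψ χ.2.1 ≠ 0) : W ψ β.2.1 ≠ 0 :=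
  right_ne_zero_of_mul ((sum_mult_W ψ (ne_one_of_prim ψ hψ) α β h.symm.add).symm.trans_ne
    (sum_ne_zero_of_nat (fun χ => mult_nat α β ⟨_, χ⟩) (fun χ => W_nat hψ ⟨_, χ⟩) h h'))

theorem R.gen_unique {α β χ χ' : Irr F} (h : R α β χ) (h' : R α β χ') (h1 : W ψ χ.2.1 ≠ 0)
    (h2 : W ψ χ'.2.1 ≠ 0) : χ = χ' := by
  classical
  obtain ⟨n, χ⟩ := χ
  obtain ⟨n', χ'⟩ := χ'
  obtain rfl : n = n' := h.add.symm.trans h'.add
  have h3 := sum_mult_W ψ (ne_one_of_prim ψ hψ) α β h.symm.add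
  rw [(W_irr ψ hψ α.2.2).resolve_left (h.symm.gen hψ h1), (W_irr ψ hψ β.2.2).resolve_left
    (h.gen hψ h1)] at h3
  choose x hx using fun χ => mult_nat α β ⟨n, χ⟩
  choose y hy using fun χ => W_nat hψ ⟨n, χ⟩
  simp only [R, hx, hy] at h h' h1 h2 h3
  norm_cast at h h' h1 h2 h3
  refine congrArg _ (not_not.1 fun h4 => ?_)
  have := (add_le_sum (f := fun χ => x χ * y χ) (fun _ _ => Nat.zero_le _) (mem_univ χ) (mem_univ χ')
    h4).trans h3.le
  have := Nat.mul_ne_zero h h1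
  have := Nat.mul_ne_zero h' h2
  omega

theorem Supp.gen_unique {S} {χ χ' : Irr F} (h : Supp S χ) (h' : Supp S χ') (h1 : W ψ χ.2.1 ≠ 0)
    (h2 : W ψ χ'.2.1 ≠ 0) : χ = χ' := by
  induction h generalizing χ' with
  | one => exact (eq_one h'.deg.symm).symm
  | cons h3 _ ih =>
    obtain ⟨X, h4, h5⟩ := h'.extract rfl
    exact h3.gen_unique hψ (ih h5 (h3.gen hψ h1) (h4.gen hψ h2) ▸ h4) h1 h2

theorem exists_gen (S) : ∃ χ : Irr F, Supp S χ ∧ W ψ χ.2.1 ≠ 0 := by
  induction S using Multiset.induction with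
  | empty =>
    have : ∀ g : U F 0, uc 0 ψ g = 1 := fun g => by rw [Subsingleton.elim g 1, map_one]
    refine ⟨_, .one, show W ψ (irrOne (GL (Fin 0) F)).1 ≠ 0 from ?_⟩
    simp [W, classInner_eq_expect, irrOne_coe, this]
  | cons ρ S ih =>
    obtain ⟨X, h1, h2⟩ := ih
    obtain ⟨χ, -, h⟩ := exists_ne_zero_of_sum_ne_zero ((sum_mult_W ψ (ne_one_of_prim ψ hψ) ρ.1 X
      rfl).trans_ne (mul_ne_zero ((ρ.2.degree ψ hψ).1.trans_ne one_ne_zero) h2))
    exact ⟨⟨_, χ⟩, .cons (left_ne_zero_of_mul h) h1, right_ne_zero_of_mul h⟩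

theorem card_MS_cusp (n : ℕ) : Nat.card (MS (fun ρ : {ρ : Irr F // IsCusp ρ} => ρ.1.1) (n + 1)) =
    (Fintype.card F - 1) * Fintype.card F ^ n := by
  have h := sum_W_GG ψ (l := n + 1) hψ
  have h0 : Nat.card {χ : IrrCharacter (GL (Fin (n + 1)) F) // W ψ χ.1 ≠ 0} = Nat.card
      (MS (fun ρ : {ρ : Irr F // IsCusp ρ} => ρ.1.1) (n + 1)) := by
    refine Nat.card_congr (.ofBijective (fun χ => ⟨_, (exists_supp ⟨_, χ.1⟩).choose_spec.deg⟩)
      ⟨fun χ χ' h => ?_, fun ⟨S, hS⟩ => ?_⟩)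
    · have h1 := (exists_supp ⟨_, χ'.1⟩).choose_spec
      rw [← Subtype.mk.inj h] at h1
      exact Subtype.ext (eq_of_heq (Sigma.mk.inj
        ((exists_supp ⟨_, χ.1⟩).choose_spec.gen_unique hψ h1 χ.2 χ'.2)).2)
    · obtain ⟨⟨m, χ⟩, h1, h2⟩ := exists_gen hψ S
      obtain rfl : n + 1 = m := hS.symm.trans h1.deg
      exact ⟨⟨χ, h2⟩, Subtype.ext ((exists_supp _).choose_spec.unique h1)⟩
  rw [sum_range_succ, sum_W_GG ψ hψ, W_GG ψ hψ, h0] at h
  refine Nat.cast_injective (R := ℂ) ?_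
  rw [Nat.cast_mul, Nat.cast_sub Fintype.card_pos, Nat.cast_pow, Nat.cast_one]
  linear_combination h

omit hψ

open Polynomial UniqueFactorizationMonoid

theorem card_MS_poly (n : ℕ) : Nat.card (MS (fun p : {p : F[X] // Irreducible p ∧ p.Monic ∧
    p.coeff 0 ≠ 0} => p.1.natDegree) (n + 1)) = (Fintype.card F - 1) * Fintype.card F ^ n := by
  have h := card_monic_coeff_zero (F := F) n (· ≠ 0)
  rw [Nat.card_eq_fintype_card (α := {c : F // c ≠ 0}), Fintype.card_subtype_compl,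
    Fintype.card_subtype_eq, Nat.card_eq_fintype_card (α := F)] at h
  have h1 : ∀ S : Multiset {p : F[X] // Irreducible p ∧ p.Monic ∧ p.coeff 0 ≠ 0},
      natDegree (S.map Subtype.val).prod = (S.map fun p => natDegree p.1).sum := fun S => by
    rw [natDegree_multiset_prod_of_monic _ (by simp +contextual), Multiset.map_map]
    rfl
  have h2 : ∀ S : Multiset {p : F[X] // Irreducible p ∧ p.Monic ∧ p.coeff 0 ≠ 0},
      normalizedFactors (S.map (·.1)).prod = S.map (·.1) := fun S => by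
    rw [normalizedFactors_prod_eq _ (by simp +contextual), Multiset.map_map]
    exact Multiset.map_congr rfl fun p _ => p.2.2.1.normalize_eq_self
  refine Eq.trans (Nat.card_congr (.ofBijective (fun S => ⟨(S.1.map (·.1)).prod,
    monic_multiset_prod_of_monic _ _ fun p _ => p.2.2.1, (h1 _).trans S.2, by
      rw [coeff_zero_multiset_prod]
      exact Multiset.prod_ne_zero (by simp +contextual [eq_comm])⟩) ⟨fun S S' h => ?_, fun f => ?_⟩)) h
  · exact Subtype.ext (Multiset.map_injective Subtype.val_injective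
      ((h2 _).symm.trans ((congrArg (normalizedFactors ·.1) h).trans (h2 _))))
  · obtain ⟨S, hS⟩ := CanLift.prf (β := Multiset {p : F[X] // Irreducible p ∧ p.Monic ∧
      p.coeff 0 ≠ 0}) (normalizedFactors f.1) fun p hp => by
        obtain ⟨h1, h2, r, h3⟩ := (Polynomial.mem_normalizedFactors_iff f.2.1.ne_zero).1 hp
        exact ⟨h1, h2, left_ne_zero_of_mul ((mul_coeff_zero p r).symm.trans_ne (h3 ▸ f.2.2.2))⟩
    have h : (S.map (·.1)).prod = f.1 := by
      rw [hS, prod_normalizedFactors_eq f.2.1.ne_zero, f.2.1.normalize_eq_self]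
    exact ⟨⟨S, by rw [← h1, h, f.2.2.1]⟩, Subtype.ext h⟩

theorem totient_le [NeZero n] : (Fintype.card F ^ n - 1).totient / n ≤ Nat.card
    {p : {p : F[X] // Irreducible p ∧ p.Monic ∧ p.coeff 0 ≠ 0} // p.1.natDegree = n} := by
  classical
  obtain ⟨p, hp⟩ := CharP.exists F
  have := Fact.mk (CharP.char_is_prime F p)
  obtain ⟨E, _, _, _, h1⟩ : ∃ (E : Type) (_ : Field E) (_ : Algebra F E) (_ : Fintype E),
      Module.finrank F E = n :=
    ⟨_, _, _, Fintype.ofFinite _, FiniteField.finrank_extension F p n⟩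
  have h2 : ∀ x : Eˣ, orderOf x = Fintype.card Eˣ → (minpoly F x.1).natDegree = n := fun x hx => by
    rw [← h1, ← Field.primitive_element_iff_minpoly_natDegree_eq, eq_top_iff]
    intro y _
    obtain rfl | hy := eq_or_ne y 0
    · exact zero_mem _
    obtain ⟨i, hi⟩ := mem_powers_iff_mem_zpowers.2 ((Subgroup.eq_top_iff' _).1
      ((Subgroup.card_eq_iff_eq_top _).1 ((Nat.card_zpowers x).trans
        (hx.trans Nat.card_eq_fintype_card.symm))) (.mk0 y hy))
    rw [← show x.1 ^ i = y from congrArg Units.val hi]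
    exact pow_mem (IntermediateField.mem_adjoin_simple_self F x.1) i
  have : Finite {p : {p : F[X] // Irreducible p ∧ p.Monic ∧ p.coeff 0 ≠ 0} // p.1.natDegree = n} :=
    have := finite_monic (F := F) (fun _ => True) n
    .of_injective (β := {f : F[X] // f.Monic ∧ f.natDegree = n ∧ True})
      (fun p => ⟨p.1.1, p.1.2.2.1, p.2, trivial⟩) fun _ _ h => Subtype.ext (Subtype.ext (Subtype.mk.inj h))
  rw [← h1, ← Module.card_eq_pow_finrank, ← Fintype.card_units, h1,
    ← IsCyclic.card_orderOf_eq_totient (α := Eˣ) dvd_rfl]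
  refine Nat.div_le_of_le_mul ((card_le_mul_card_image (f := fun x : Eˣ => minpoly F x.1) _ n
    fun f hf => ?_).trans (Nat.mul_le_mul_left _ ?_))
  · obtain ⟨x, hx, rfl⟩ := mem_image.1 hf
    refine (card_le_card_of_injOn Units.val (t := ((minpoly F x.1).aroots E).toFinset)
      (fun y hy => ?_) Units.val_injective.injOn).trans ((Multiset.toFinset_card_le _).trans
      ((card_roots' _).trans (natDegree_map_le.trans (h2 x (mem_filter.1 hx).2).le)))
    rw [mem_coe, Multiset.mem_toFinset, mem_aroots, ← (mem_filter.1 hy).2]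
    exact ⟨minpoly.ne_zero_of_finite F _, minpoly.aeval F _⟩
  · rw [← Nat.card_eq_finsetCard]
    refine Nat.card_le_card_of_injective (fun f => ⟨⟨f.1, ?_⟩, ?_⟩) fun _ _ h =>
      Subtype.ext (Subtype.mk.inj (Subtype.mk.inj h))
    all_goals obtain ⟨x, hx, h⟩ := mem_image.1 f.2
    · exact h ▸ ⟨minpoly.irreducible (.of_finite F _), minpoly.monic (.of_finite F _),
        minpoly.coeff_zero_ne_zero (.of_finite F _) x.ne_zero⟩
    · exact h ▸ h2 x (mem_filter.1 hx).2

theorem totient_le_card_cusp [NeZero n] : (Fintype.card F ^ n - 1).totient / n ≤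
    Nat.card {χ : IrrCharacter (GL (Fin n) F) // IsCusp ⟨n, χ⟩} := by
  have hψ := AddChar.FiniteField.primitiveChar_to_Complex_isPrimitive F
  obtain ⟨e⟩ := MS_compare (fun ρ : {ρ : Irr F // IsCusp ρ} => ρ.2.1) (fun p : {p : F[X] //
    Irreducible p ∧ p.Monic ∧ p.coeff 0 ≠ 0} => p.2.1.natDegree_pos.ne') (fun n => ⟨by
      rw [card_MS_cusp hψ]
      exact Nat.mul_pos (Nat.sub_pos_of_lt Fintype.one_lt_card) (Nat.pow_pos Fintype.card_pos),
      (card_MS_cusp hψ n).trans (card_MS_poly n).symm⟩) n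
  refine totient_le.trans_eq ((Nat.card_congr e).symm.trans (Nat.card_congr (Equiv.ofBijective
    (fun χ => ⟨⟨⟨n, χ.1⟩, χ.2⟩, rfl⟩) ⟨fun χ χ' h => ?_, ?_⟩)).symm)
  · exact Subtype.ext (eq_of_heq (Sigma.mk.inj (Subtype.mk.inj (Subtype.mk.inj h))).2)
  · rintro ⟨⟨⟨_, χ⟩, h⟩, rfl⟩
    exact ⟨⟨χ, h⟩, rfl⟩

open scoped _root_.Classical in
theorem IsCusp.sum_eq_zero {χ : IrrCharacter (GL (Fin n) F)} (h : IsCusp ⟨n, χ⟩) (h0 : 0 < a)
    (h1 : a < n) : (∑ g : GL (Fin n) F, if ∀ i j : Fin n, ¬ (i.1 < a ∧ a ≤ j.1) →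
      g.1 i j = (1 : Matrix (Fin n) (Fin n) F) i j then χ.1 g else 0) = 0 := by
  obtain ⟨b, rfl⟩ := Nat.exists_eq_add_of_le h1.le
  have h2 : ∀ A B C D, (∀ i j : Fin (a + b), ¬ (i.1 < a ∧ a ≤ j.1) → (fromBlocks A B C D).submatrix
      (spl rfl).symm (spl rfl).symm i j = (1 : Matrix _ _ F) i j) ↔ A = 1 ∧ D = 1 ∧ C = 0 :=
    fun A B C D => by
    rw [(spl (rfl : a + b = _)).surjective.forall₂]
    simp only [spl_inl, spl_inr, ← Matrix.ext_iff, Sum.forall, forall_and]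
    simp [one_apply, and_comm, and_assoc]
  simp only [← cl_edM (irr_isClassFunction χ)]
  rw [sum_GL (Φ := fun g => if ∀ i j : Fin (a + b), ¬ (i.1 < a ∧ a ≤ j.1) →
    g i j = (1 : Matrix _ _ F) i j then cl χ.1 (edM g) else 0) fun A hA =>
      (of_cl_ne_zero (ite_ne_right_iff.1 hA).2).1, sum_blocks (spl rfl) (spl rfl)]
  simp only [h2, ite_and, edM_submatrix, sum_ite_irrel, sum_const_zero, sum_ite_eq', mem_univ, if_true,
    sum_eq_res]
  exact mul_eq_zero_of_right _ (not_not.1 fun h' => by have := h.res h'; simp at this; omega)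

end CfsgLib.Cusp
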