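import Cfsg.Agent.Lib.Char.Induce
import Cfsg.Agent.Lib.CL.Product

/-!
# Inner products of induced characters and Gelfand's trick
-/

set_option autoImplicit false

namespace CfsgLib.Cusp

open Cfsg CfsgLib.Char Finset Module
open scoped ComplexConjugate Pointwise

variable {G : Type*} [Group G] [Fintype G] {H K : Subgroup G} {θ : H → ℂ} {η : K → ℂ}

/-- The contribution of `x` to the inner product of two induced functions. -/
noncomputable def mk (θ : H → ℂ) (η : K → ℂ) (x : G) : ℂ :=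
  ∑ g, extendByZero H θ g * conj (extendByZero K η (x * g * x⁻¹))

theorem inner_ind_ind (θ : H → ℂ) (η : K → ℂ) : classInner (indFun H θ) (indFun K η) =
    (Nat.card H * Nat.card K : ℂ)⁻¹ * ∑ x, mk θ η x := by
  classical
  rw [classInner_indFun_left H θ (isClassFunction_indFun K η), classInner_def,
    ← sum_extendByZero_mul H θ fun g => conj (indFun K η g)]
  simp only [indFun_apply', map_mul, map_sum, mul_sum, mk, map_inv₀, map_natCast]
  rw [sum_comm]
  exact sum_congr rfl fun _ _ => sum_congr rfl fun _ _ => by ring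

theorem mk_mul (hθ : IsClassFunction H θ) (hη : IsClassFunction K η) {k h : G} (hk : k ∈ K)
    (hh : h ∈ H) (x : G) : mk θ η (k * x * h) = mk θ η x := by
  refine Fintype.sum_equiv (MulAut.conj h).toEquiv _ _ fun g => ?_
  rw [show k * x * h * g * (k * x * h)⁻¹ = k * (x * (h * g * h⁻¹) * x⁻¹) * k⁻¹ by group,
    extendByZero_conj_of_mem K hη hk, ← extendByZero_conj_of_mem H hθ hh]
  rfl

theorem inner_ind_ind_of_one (hθ : IsClassFunction H θ) (hη : IsClassFunction K η)
    (h : ∀ x, x ∈ (K : Set G) * (H : Set G) ∨ mk θ η x = 0) : classInner (indFun H θ) (indFun K η) =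
      (Nat.card (K ⊓ H : Subgroup G) : ℂ)⁻¹ * mk θ η 1 := by
  classical
  have h1 := congrArg (Nat.cast : ℕ → ℂ) (CL.card_mul_mul_card_inf K H)
  rw [inner_ind_ind, ← sum_subset (subset_univ ((K : Set G) * (H : Set G)).toFinset) fun x _ hx =>
    (h x).resolve_left (mt Set.mem_toFinset.2 hx), sum_congr rfl (g := fun _ => mk θ η 1) fun x hx => by
      obtain ⟨k, hk, h, hh, rfl⟩ := Set.mem_toFinset.1 hx
      rw [← mk_mul hθ hη hk hh 1, mul_one], sum_const, ← Nat.card_eq_card_toFinset, nsmul_eq_mul]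
  push_cast at h1
  have := natCard_ne_zero (G := H); have := natCard_ne_zero (G := K)
  have := natCard_ne_zero (G := (K ⊓ H : Subgroup G))
  field_simp
  linear_combination mk θ η 1 * h1

theorem sum_inner_mul_inner [Fintype H] [Fintype K] (θ : H → ℂ) (η : K → ℂ) :
    ∑ χ : IrrCharacter G, conj (classInner (fun h : H => χ.1 h) θ) * classInner (fun k : K => χ.1 k) η =
      classInner (indFun H θ) (indFun K η) := by
  rw [classInner_eq_sum_irr (isClassFunction_indFun H θ)]
  refine sum_congr rfl fun χ _ => ?_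
  rw [classInner_conj_symm, classInner_conj_symm, classInner_indFun_left H θ (irr_isClassFunction χ),
    classInner_indFun_right K η (irr_isClassFunction χ)]

theorem exists_mk_ne_zero [Fintype H] [Fintype K] (hθ : IsCharacter H θ) (hη : IsCharacter K η)
    {χ : IrrCharacter G} (h1 : classInner (fun h : H => χ.1 h) θ ≠ 0)
    (h2 : classInner (fun k : K => χ.1 k) η ≠ 0) : ∃ x, mk θ η x ≠ 0 := by
  refine (exists_ne_zero_of_sum_ne_zero (s := univ) (right_ne_zero_of_mul
    (((sum_inner_mul_inner θ η).trans (inner_ind_ind θ η)).symm.trans_ne ?_))).imp fun _ h => h.2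
  choose a ha using fun χ : IrrCharacter G =>
    exists_classInner_eq_nat (isCharacter_restrict H (irr_isCharacter χ)) hθ
  choose b hb using fun χ : IrrCharacter G =>
    exists_classInner_eq_nat (isCharacter_restrict K (irr_isCharacter χ)) hη
  simp only [ha, hb, map_natCast] at h1 h2 ⊢
  norm_cast at h1 h2 ⊢
  exact fun h => mul_ne_zero h1 h2 (sum_eq_zero_iff.1 h χ (mem_univ _))

theorem gelfand [Fintype K] (ψ : K →* ℂ) (τ : G → G) (h1 : ∀ x y, τ (x * y) = τ y * τ x)
    (σ : K ≃ K) (h2 : ∀ u : K, τ u = σ u) (h3 : ∀ u, ψ (σ u) = ψ u) (h4 : ∀ x, ∃ (u v : K) (n : G),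
      x = u * n * v ∧ (τ n = n ∨ ∃ u v : K, u * n = n * v ∧ ψ u ≠ ψ v)) {χ : G → ℂ}
    (hχ : IsIrrCharacter G χ) :
    classInner (fun k : K => χ k) ψ = 0 ∨ classInner (fun k : K => χ k) ψ = 1 := by
  obtain ⟨d, ρ, _, rfl⟩ := hχ
  have hK := natCard_ne_zero (G := K)
  obtain ⟨E, hE⟩ : ∃ E : End ℂ (Fin d → ℂ), E = (Nat.card K : ℂ)⁻¹ • ∑ u : K, ψ u⁻¹ • ρ u := ⟨_, rfl⟩
  have e1 : ∀ u : K, ρ u * E = ψ u • E := fun u => by
    rw [hE, mul_smul_comm, smul_comm (ψ u), mul_sum, smul_sum (r := ψ u)]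
    refine congrArg _ (Fintype.sum_equiv (Equiv.mulLeft u) _ _ fun v => ?_)
    rw [smul_smul, Equiv.coe_mulLeft, mul_inv_rev, map_mul, mul_left_comm, ← map_mul]
    simp
  have e2 : ∀ u : K, E * ρ u = ψ u • E := fun u => by
    rw [hE, smul_mul_assoc, smul_comm (ψ u), sum_mul, smul_sum (r := ψ u)]
    refine congrArg _ (Fintype.sum_equiv (Equiv.mulRight u) _ _ fun v => ?_)
    simp [smul_smul, ← map_mul]
  have e3 : E * E = E := by
    nth_rw 1 [hE]
    simp only [smul_mul_assoc, sum_mul, e1, smul_smul, ← map_mul, inv_mul_cancel, map_one, one_smul,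
      sum_const, card_univ, ← Nat.cast_smul_eq_nsmul ℂ, ← Nat.card_eq_fintype_card, inv_mul_cancel₀ hK]
  have e4 : ∀ (u v : K) (n : G), E * ρ (u * n * v) * E = (ψ u * ψ v) • (E * ρ n * E) := fun u v n => by
    rw [map_mul, map_mul, mul_assoc, mul_assoc, e1, ← mul_assoc, ← mul_assoc, e2]
    simp [smul_smul, mul_comm]
  have e5 : ∀ (u v : K) (n : G), u * n = n * v → ψ u ≠ ψ v → E * ρ n * E = 0 := fun u v n h h' => by
    have := (e4 u 1 n).symm.trans ((congrArg (E * ρ · * E) (by simpa using h)).trans (e4 1 v n))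
    rw [map_one, mul_one, one_mul] at this
    exact not_not.1 fun h0 => h' (smul_left_injective ℂ h0 this)
  have e6 : ∀ x, E * ρ (τ x) * E = E * ρ x * E := fun x => by
    obtain ⟨u, v, n, rfl, h⟩ := h4 x
    rw [h1, h1, h2, h2, ← mul_assoc _ (τ n), e4, e4, h3, h3, mul_comm (ψ v)]
    obtain h | ⟨u, v, h, h'⟩ := h
    · rw [h]
    · rw [e5 u v n h h', e5 (σ v) (σ u) (τ n) (by rw [← h2, ← h2, ← h1, ← h1, h])
        (by rw [h3, h3]; exact h'.symm)]
  have e7 : ∀ x y, E * ρ x * E * (E * ρ y * E) =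
      (Nat.card K : ℂ)⁻¹ • ∑ u : K, ψ u⁻¹ • (E * ρ (x * u * y) * E) := fun x y => by
    rw [mul_assoc, ← mul_assoc E, ← mul_assoc E, e3]
    nth_rw 2 [hE]
    simp [mul_sum, sum_mul, mul_assoc]
  have e8 : ∀ x y, Commute (E * ρ x * E) (E * ρ y * E) := fun x y => by
    rw [commute_iff_eq, e7, ← e6 x, ← e6 y, e7]
    refine congrArg _ (Fintype.sum_equiv σ _ _ fun u => ?_)
    rw [← e6, h1, h1, h2, mul_assoc (τ y), map_inv, map_inv, h3]
  have e9 : ∀ A : End ℂ (Fin d → ℂ), ∑ g, ρ g * A * ρ g⁻¹ =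
      (Nat.card G * LinearMap.trace ℂ _ A / d) • 1 := fun A => by
    have hd : (d : ℂ) ≠ 0 := by simpa using (finrank_pos_of_isIrreducible ρ).ne'
    obtain ⟨c, hc⟩ := exists_eq_smul_of_comm ρ (∑ g, ρ g * A * ρ g⁻¹) fun x => by
      rw [← End.mul_eq_comp, ← End.mul_eq_comp, sum_mul, mul_sum]
      exact (Fintype.sum_equiv (Equiv.mulLeft x) _ _ fun g => by
        rw [Equiv.coe_mulLeft, mul_assoc _ (ρ _) (ρ x), ← map_mul]; simp [mul_assoc]).symm
    have := congrArg (LinearMap.trace ℂ _) hc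
    simp only [map_sum, LinearMap.trace_mul_cycle ℂ (ρ _) A, ← map_mul, inv_mul_cancel, map_one,
      one_mul, sum_const, card_univ, nsmul_eq_mul, ← Nat.card_eq_fintype_card, map_smul,
      LinearMap.trace_id, finrank_fin_fun, smul_eq_mul] at this
    rw [hc, this, mul_div_cancel_right₀ _ hd]
    rfl
  have e10 : finrank ℂ (LinearMap.range E) ≤ 1 := by
    have hd : (d : ℂ) ≠ 0 := by simpa using (finrank_pos_of_isIrreducible ρ).ne'
    have hE' : ∀ v : LinearMap.range E, E v = v := by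
      rintro ⟨_, v, rfl⟩; exact LinearMap.congr_fun e3 v
    rcases subsingleton_or_nontrivial (LinearMap.range E) with h | h
    · simp [finrank_zero_of_subsingleton]
    obtain ⟨v, hv⟩ := exists_ne (0 : LinearMap.range E)
    obtain ⟨ξ, hξ⟩ := Projective.exists_dual_eq_one ℂ (Subtype.coe_ne_coe.2 hv)
    have h5 : ∀ w x, E w = w → E x = x → (∑ g, ξ (E (ρ g⁻¹ w)) • (E * ρ g * E)) x =
        (Nat.card G / d * ξ x) • w := fun w x hw hx => by
      have := congrArg E (LinearMap.congr_fun (e9 ((ξ ∘ₗ E).smulRight x)) w)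
      simpa [hw, hx, mul_div_right_comm] using this
    refine finrank_le_one v fun w => ⟨ξ w, Subtype.ext ?_⟩
    have h6 := LinearMap.congr_fun (Commute.sum_left univ _ _ fun g _ =>
      (Commute.sum_right univ _ _ fun g' _ => (e8 g g').smul_right (ξ (E (ρ g'⁻¹ v)))).smul_left
        (ξ (E (ρ g⁻¹ w)))).eq v
    rw [End.mul_apply, End.mul_apply, h5 _ _ (hE' v) (hE' v), h5 _ _ (hE' w) (hE' v), map_smul, map_smul,
      h5 _ _ (hE' v) (hE' w), h5 _ _ (hE' w) (hE' v), hξ, mul_one, mul_smul] at h6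
    have hc := div_ne_zero (natCard_ne_zero (G := G)) hd
    exact (smul_right_injective _ hc (smul_right_injective _ hc h6)).symm
  have e11 := (LinearMap.IsIdempotentElem.isProj_range E e3).trace
  rw [classInner_char_eq_sum_inv _ (isCharacter_of_isIrr (isIrr_monoidHom ψ)),
    show _ * _ = LinearMap.trace ℂ _ E by simp [hE, Representation.character, mul_comm], e11]
  rcases Nat.le_one_iff_eq_zero_or_eq_one.1 e10 with h | h <;> simp [h]

end CfsgLib.Cusp
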