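import Cfsg.Agent.Lib.Cusp.Whit

/-!
# Whittaker models of parabolically induced characters
-/

set_option autoImplicit false
set_option linter.unusedSectionVars false

namespace CfsgLib.Cusp

open Cfsg CfsgLib.Char CfsgLib.MatConj Finset Matrix
open scoped ComplexConjugate BigOperators

variable {F : Type*} [Field F] [Fintype F] [DecidableEq F] {ι κ m m' k k' : Type} [Fintype ι]
  [DecidableEq ι] [Fintype κ] [DecidableEq κ] [Fintype m] [DecidableEq m] [Fintype m']
  [DecidableEq m'] [Fintype k] [DecidableEq k] [Fintype k'] [DecidableEq k'] {a b n : ℕ}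

variable (ψ : AddChar F ℂ)

/-- The nondegenerate character extended by zero. -/
noncomputable def wh (M : Matrix (Fin n) (Fin n) F) : ℂ := if Uni M then ψ (sd M) else 0

theorem extendByZero_uc (g : GL (Fin n) F) : extendByZero (U F n) (uc n ψ) g = wh ψ g.1 := by
  by_cases h : Uni g.1
  · rw [wh, if_pos h, extendByZero_of_mem _ _ (show g ∈ U F n from h)]; rfl
  · rw [wh, if_neg h, extendByZero_of_not_mem _ _ (show g ∉ U F n from h)]

theorem isUnit_of_wh {M : Matrix (Fin n) (Fin n) F} (h : wh ψ M ≠ 0) : IsUnit M :=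
  Uni.isUnit (not_not.1 fun h' => h (if_neg h'))

variable (n) in
/-- The unnormalised Whittaker functional. -/
noncomputable def WS (Φ : Cls F → ℂ) : ℂ :=
  ∑ M : Matrix (Fin n) (Fin n) F, Φ (edM M) * conj (wh ψ M)

theorem sum_U (Φ : Cls F → ℂ) : ∑ u : U F n, Φ (edM u.1.1) * conj (uc n ψ u) = WS n ψ Φ := by
  simp only [WS, mul_comm (Φ _)]
  rw [← sum_extendByZero_mul _ _ fun g : GL _ F => Φ (edM g.1), ← sum_GL fun A hA =>
    isUnit_of_wh ψ (by simpa using left_ne_zero_of_mul hA)]
  simp only [extendByZero_conj, extendByZero_uc]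

theorem card_U : (Nat.card (U F n) : ℂ) = WS n (1 : AddChar F ℂ) 1 := by
  simp [← sum_U, uc]

theorem W_eq {f : GL (Fin n) F → ℂ} (hf : IsClassFunction _ f) :
    W ψ f = (Nat.card (U F n) : ℂ)⁻¹ * WS n ψ (cl f) := by
  simp only [W, classInner, ← sum_U, cl_edM hf]

theorem spl_inl (h : a + b = n) (i : Fin a) : (spl h (.inl i)).1 = i := rfl

theorem spl_inr (h : a + b = n) (i : Fin b) : (spl h (.inr i)).1 = a + i := rfl

theorem wh_blocks (h : a + b = n) (A : Matrix (Fin a) (Fin a) F) (B : Matrix (Fin a) (Fin b) F)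
    (C : Matrix (Fin b) (Fin a) F) (D : Matrix (Fin b) (Fin b) F) :
    wh ψ ((fromBlocks A B C D).submatrix (spl h).symm (spl h).symm) = if C = 0 then
      wh ψ A * (ψ (∑ i, ∑ j, if i.1 + 1 = a + j.1 then B i j else 0) * wh ψ D) else 0 := by
  have h1 : Uni ((fromBlocks A B C D).submatrix (spl h).symm (spl h).symm) ↔
      C = 0 ∧ Uni A ∧ Uni D := by
    have h2 : ∀ (i : Fin a) (j : Fin b), i.1 < a + j ∧ i.1 ≤ a + j := fun i j => by omega
    rw [Uni, (spl h).surjective.forall₂]
    simp only [Uni, Fin.lt_def, spl_inl, spl_inr, ← Matrix.ext_iff, Sum.forall, forall_and]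
    simp [h2, and_comm, and_left_comm, and_assoc]
  have h2 : sd ((fromBlocks A B C D).submatrix (spl h).symm (spl h).symm) =
      sd A + ((∑ i, ∑ j, if i.1 + 1 = a + j.1 then B i j else 0) + sd D) := by
    have h2 : ∀ (i : Fin a) (j : Fin b), a + (j + 1) ≠ i := fun i j => by omega
    simp [sd, ← (spl h).sum_comp, spl_inl, spl_inr, sum_add_distrib, h2, add_assoc]
    congr!
  simp only [wh, h1, h2, ite_and, ψ.map_add_eq_mul, mul_ite, ite_mul, mul_zero, zero_mul]
  split_ifs <;> rfl

theorem sum_par_wh (h : b + a = n) (α β : Cls F → ℂ) :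
    ∑ g, par ((Equiv.sumComm _ _).trans (spl h)) α β g * conj (wh ψ g) = WS a ψ α * WS b ψ β := by
  have : ∀ A B C D, (fromBlocks A B C D).submatrix ((Equiv.sumComm _ _).trans (spl h)).symm
      ((Equiv.sumComm _ _).trans (spl h)).symm =
      (fromBlocks D C B A : Matrix _ _ F).submatrix (spl h).symm (spl h).symm := fun A B C D => by
    rw [← fromBlocks_submatrix_sum_swap_sum_swap A]; rfl
  rw [sum_blocks ((Equiv.sumComm _ _).trans (spl h)) ((Equiv.sumComm _ _).trans (spl h))]
  simp only [par_fromBlocks, ite_mul, zero_mul, sum_ite_eq', mem_univ, if_true]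
  simp only [this, wh_blocks, sum_ite_eq', mem_univ, if_true, apply_ite conj,
    map_zero, mul_ite, mul_zero, WS, sum_mul_sum, sum_ite_irrel, Matrix.zero_apply, ite_self, sum_const_zero,
    AddChar.map_zero_eq_one, map_mul, one_mul]
  exact sum_congr rfl fun _ _ => sum_congr rfl fun _ _ => by ring

theorem sum_par_wh_eq_zero (hψ : ψ ≠ 1) (e : m ⊕ m' ≃ Fin n) {i j}
    (h : (e (.inl i)).1 + 1 = e (.inr j)) (α β : Cls F → ℂ) :
    ∑ g, par e α β g * conj (wh ψ g) = 0 := by
  obtain ⟨c, hc⟩ := AddChar.ne_one_iff.1 hψ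
  have h1 : ∀ g, par e α β (g + single (e (.inl i)) (e (.inr j)) c) = par e α β g := fun g => by
    refine if_congr (by simp [Z, single_apply]) ?_ rfl
    congr 3 <;> ext <;> simp [single_apply]
  have h2 : ∀ g, wh ψ (g + single (e (.inl i)) (e (.inr j)) c) = wh ψ g * ψ c := fun g => by
    simp only [wh, uni_add_single (show e (.inl i) < e (.inr j) by omega), sd_add_single, if_pos h,
      ψ.map_add_eq_mul, ite_mul, zero_mul]
  have := Equiv.sum_comp (Equiv.addRight (single (e (.inl i)) (e (.inr j)) c))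
    fun g => par e α β g * conj (wh ψ g)
  simp only [Equiv.coe_addRight, h1, h2, map_mul, ← mul_assoc, ← sum_mul] at this
  exact not_not.1 fun h0 => hc ((map_eq_one_iff _ (starRingEnd ℂ).injective).1 ((mul_eq_left₀ h0).1 this))

theorem par_trans (e : m ⊕ m' ≃ κ) (w : κ ≃ ι) (α β : Cls F → ℂ) (g : Matrix ι ι F) :
    par (e.trans w) α β g = par e α β (g.submatrix w w) := if_congr Iff.rfl rfl rfl

theorem pmat_mem_Pp (h : b + a = n) (w : Equiv.Perm (Fin n))
    (hw : ∀ i j, (w (spl h (.inr i))).1 + 1 ≠ w (spl h (.inl j))) :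
    GLFlag.pmat F w ∈ Pp F ((Equiv.sumComm _ _).trans (spl h)) := fun j i => by
  refine (GLFlag.pmat_apply _ _ _).trans (if_neg fun h1 => ?_)
  have h2 : ∀ (d : ℕ) (x : Fin n), j + d = x → x ∈ univ.image fun i => w (spl h (.inr i)) := fun d => by
    induction d with
    | zero => exact fun x hx => mem_image.2 ⟨i, mem_univ _, h1.symm.trans (Fin.ext hx)⟩
    | succ d ih =>
      intro x hx
      obtain ⟨i, -, hi⟩ := mem_image.1 (ih ⟨j + d, by omega⟩ rfl)
      obtain ⟨y | y, rfl⟩ := ((spl h).trans w).surjective x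
      · exact absurd (by rw [hi]; exact hx) (hw i y)
      · exact mem_image_of_mem _ (mem_univ y)
  have := (card_le_card (s := Ici (spl h (.inl j))) fun x hx => h2 (x - j) x (by
    have := mem_Ici.1 hx
    rw [Fin.le_def, spl_inl] at this
    omega)).trans card_image_le
  simp only [Fin.card_Ici, spl_inl, card_univ, Fintype.card_fin] at this
  omega

theorem sum_mult_W (hψ : ψ ≠ 1) (α β : Irr F) (h : β.1 + α.1 = n) :
    ∑ χ : IrrCharacter (GL (Fin n) F), mult α.2.1 β.2.1 χ.1 * W ψ χ.1 = W ψ α.2.1 * W ψ β.2.1 := by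
  classical
  have hθ := isClassFunction_of_isCharacter (isCharacter_infl' ((Equiv.sumComm _ _).trans (spl h)))
  have hη := isClassFunction_of_isIrr (isIrr_monoidHom (uc n ψ))
  have h0 : ∀ w, mk (infl ((Equiv.sumComm _ _).trans (spl h)) (cl α.2.1) (cl β.2.1)) (uc n ψ)
      (GLFlag.pmat F w) = ∑ g, par (((Equiv.sumComm _ _).trans (spl h)).trans w) (cl α.2.1)
        (cl β.2.1) g * conj (wh ψ g) := fun w => by
    simp only [mk, extendByZero_infl, extendByZero_uc, pmat_conj]
    rw [sum_GL (Φ := fun g => par _ _ _ g * conj (wh ψ (g.submatrix w.symm w.symm)))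
      fun A hA => par_cl_ne_zero _ (left_ne_zero_of_mul hA)]
    exact Fintype.sum_equiv (reindex w w) _ _ fun g => by simp [par_trans]
  have h1 := (sum_inner_mul_inner _ _).trans (inner_ind_ind_of_one hθ hη fun x => ?_)
  · have h2 : (Nat.card (U F n ⊓ Pp F ((Equiv.sumComm _ _).trans (spl h)) : Subgroup _) : ℂ) =
        Nat.card (U F α.1) * Nat.card (U F β.1) := by
      rw [card_U, card_U, ← sum_par_wh _ h, ← sum_GL fun A hA =>
        isUnit_of_wh 1 (by simpa using right_ne_zero_of_mul hA), Nat.card_eq_fintype_card,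
        Fintype.card_subtype, natCast_card_filter]
      refine sum_congr rfl fun g _ => ?_
      simp only [par, wh, Subgroup.mem_inf, and_comm (a := g ∈ U F n), ite_and, Pi.one_apply,
        AddChar.one_apply, apply_ite conj, map_one, map_zero, ite_mul, one_mul, zero_mul]
      congr
    rw [h2, ← (GLFlag.pmat F).map_one, h0, Equiv.Perm.one_def, Equiv.trans_refl, sum_par_wh] at h1
    rw [W_eq _ (irr_isClassFunction α.2), W_eq _ (irr_isClassFunction β.2), mul_mul_mul_comm,
      ← mul_inv, ← h1]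
    refine sum_congr rfl fun χ _ => ?_
    obtain ⟨r, hr⟩ := mult_nat α β ⟨n, χ⟩
    rw [inner_infl' (χ := ⟨n, χ⟩), hr, map_natCast, W]
  obtain ⟨u, hu, w, v, hv, hx⟩ := bruhat' (x * GLFlag.pmat F Fin.revPerm)
  have h2 : GLFlag.pmat F Fin.revPerm * v * (GLFlag.pmat F Fin.revPerm)⁻¹ ∈
      Pp F ((Equiv.sumComm _ _).trans (spl h)) := fun i j => by
    rw [Units.coeHom_apply, pmat_conj]
    exact GLFlag.mem_Par.1 hv _ _ (by simp [Fin.lt_def, spl_inl, spl_inr]; omega)
  obtain rfl : x = u * GLFlag.pmat F (w * Fin.revPerm⁻¹) * (GLFlag.pmat F Fin.revPerm * v *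
      (GLFlag.pmat F Fin.revPerm)⁻¹) := by
    rw [eq_mul_inv_of_mul_eq hx, map_mul, map_inv]; group
  rw [mk_mul hθ hη hu h2, h0, or_iff_not_imp_right, mul_assoc u]
  exact fun h3 => Set.mul_mem_mul hu (mul_mem (pmat_mem_Pp h _ fun i j h4 =>
    h3 (sum_par_wh_eq_zero ψ hψ _ h4 _ _)) h2)

end CfsgLib.Cusp
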