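import Cfsg.Agent.Lib.Cusp.Par
import Cfsg.Agent.Lib.GLFlag.Bruhat

/-!
# Cuspidal characters and cuspidal supports for general linear groups
-/

set_option autoImplicit false
set_option linter.unusedSectionVars false

namespace CfsgLib.Cusp

open Cfsg CfsgLib.Char CfsgLib.MatConj Finset Matrix
open scoped ComplexConjugate BigOperators

variable {F : Type*} [Field F] [Fintype F] [DecidableEq F] {ι κ m m' k k' : Type} [Fintype ι]
  [DecidableEq ι] [Fintype κ] [DecidableEq κ] [Fintype m] [DecidableEq m] [Fintype m']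
  [DecidableEq m'] [Fintype k] [DecidableEq k] [Fintype k'] [DecidableEq k'] {a b n : ℕ}

variable (F) in
/-- Irreducible characters of all the groups `GL n`. -/
abbrev Irr : Type _ := Σ n, IrrCharacter (GL (Fin n) F)

/-- `χ` is a constituent of the Harish-Chandra induction of `α ⊗ β`. -/
def R (α β χ : Irr F) : Prop := mult α.2.1 β.2.1 χ.2.1 ≠ 0

theorem R.symm {α β χ : Irr F} (h : R α β χ) : R β α χ := (mult_comm _ _ _).trans_ne h

theorem R.add {α β χ : Irr F} (h : R α β χ) : α.1 + β.1 = χ.1 := add_eq_of_mult h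

theorem sum_ne_zero_of_nat {T : Type*} [Fintype T] {f g : T → ℂ} (hf : ∀ t, ∃ r : ℕ, f t = r)
    (hg : ∀ t, ∃ r : ℕ, g t = r) {t : T} (h : f t ≠ 0) (h' : g t ≠ 0) : ∑ t, f t * g t ≠ 0 := by
  choose a ha using hf
  choose b hb using hg
  simp only [ha, hb] at h h' ⊢
  norm_cast at h h' ⊢
  exact fun h0 => mul_ne_zero h h' (sum_eq_zero_iff.1 h0 t (mem_univ _))

theorem mult_st {c d : ℕ} (α : GL (Fin a) F → ℂ) (β : GL (Fin b) F → ℂ) (γ : GL (Fin c) F → ℂ)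
    (f : GL (Fin n) F → ℂ) : mult α γ (st d β f) =
      ∑ Y : IrrCharacter (GL (Fin d) F), mult β Y.1 f * mult α γ Y.1 := by
  rw [classFun_eq_sum (isClassFunction_st β f), mult_sum]
  rfl

theorem mult_nat (α β χ : Irr F) : ∃ r : ℕ, mult α.2.1 β.2.1 χ.2.1 = r :=
  exists_mult_eq_nat (irr_isCharacter _) (irr_isCharacter _) (irr_isCharacter _)

theorem R.left_comm {α β Y Z χ : Irr F} (h : R β Y χ) (h' : R α Z Y) :
    ∃ Y', R α Y' χ ∧ R β Z Y' := by
  obtain ⟨d, Y⟩ := Y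
  obtain rfl : α.1 + Z.1 = d := h'.add
  have h1 := (mult_st α.2.1 β.2.1 Z.2.1 χ.2.1).trans_ne (sum_ne_zero_of_nat
    (fun Y => mult_nat β ⟨_, Y⟩ χ) (fun Y => mult_nat α Z ⟨_, Y⟩) h h')
  rw [mult, st_st, ← mult, mult_st] at h1
  obtain ⟨Y', -, h2⟩ := exists_ne_zero_of_sum_ne_zero h1
  exact ⟨⟨_, Y'⟩, left_ne_zero_of_mul h2, right_ne_zero_of_mul h2⟩

variable (F) in
/-- The character of `GL 0`. -/
def one : Irr F := ⟨0, irrOne _⟩

theorem R_one (χ : Irr F) : R (one F) χ χ := by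
  have : st χ.1 (irrOne (GL (Fin 0) F)).1 χ.2.1 = χ.2.1 := funext fun D => by
    simp only [st, res_empty, cl_edM (irr_isClassFunction χ.2), irrOne_coe, map_one, one_mul,
      Fintype.expect_const]
  exact ((congrArg (classInner · _) this).trans (classInner_irr_self χ.2.2)).trans_ne one_ne_zero

theorem eq_one {χ : Irr F} (h : χ.1 = 0) : χ = one F := by
  obtain ⟨n, χ⟩ := χ
  obtain rfl : n = 0 := h
  have : IsMulCommutative (GL (Fin 0) F) := ⟨⟨fun _ _ => Subsingleton.elim _ _⟩⟩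
  exact congrArg _ (Subtype.ext (funext fun g => by
    rw [Subsingleton.elim g 1, irr_one_eq_one_of_comm χ.2, irrOne_apply]))

/-- Cuspidal characters. -/
def IsCusp (χ : Irr F) : Prop := χ.1 ≠ 0 ∧ ∀ α β, R α β χ → α.1 = 0 ∨ β.1 = 0

theorem IsCusp.res {χ : Irr F} (h : IsCusp χ) {A : Matrix ι ι F} {D : Matrix m m F}
    (h' : res (cl χ.2.1) (edM A) (edM D) ≠ 0) : Fintype.card ι = 0 ∨ Fintype.card m = 0 := by
  obtain ⟨A', hA⟩ := exists_GL.2 ⟨(res_cl_ne_zero h').1, rfl⟩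
  obtain ⟨D', hD⟩ := exists_GL.2 ⟨(res_cl_ne_zero h').2.1, rfl⟩
  rw [← hA, ← hD, res_eq_sum] at h'
  obtain ⟨α, -, h'⟩ := exists_ne_zero_of_sum_ne_zero h'
  obtain ⟨β, -, h'⟩ := exists_ne_zero_of_sum_ne_zero h'
  exact h.2 ⟨_, α⟩ ⟨_, β⟩ (left_ne_zero_of_mul h')

theorem exists_cusp {χ : Irr F} (h : χ.1 ≠ 0) : ∃ ρ X, IsCusp ρ ∧ R ρ X χ := by
  obtain ⟨ρ, ⟨h1, X, h2⟩, h3⟩ := (InvImage.wf (fun α : Irr F => α.1) wellFounded_lt).has_min
    {α | α.1 ≠ 0 ∧ ∃ X, R α X χ} ⟨χ, h, _, (R_one χ).symm⟩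
  refine ⟨ρ, X, ⟨h1, fun α β h4 => not_not.1 fun h5 => h3 α ⟨fun h => h5 (.inl h),
    (h2.symm.left_comm h4).imp fun _ h => h.1⟩ ?_⟩, h2⟩
  have := h4.add
  change α.1 < ρ.1
  omega

theorem sum_cl_cl {α β : GL (Fin n) F → ℂ} (hα : IsClassFunction _ α) (hβ : IsClassFunction _ β) :
    ∑ A : Matrix (Fin n) (Fin n) F, cl α (edM A) * conj (cl β (edM A)) =
      Fintype.card (GL (Fin n) F) * classInner α β := by
  simp only [mul_comm (cl α _), sum_cl_mul (Fintype.card_fin n) β hβ, cl_edM hα, classInner_eq_expect,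
    mul_comm (α _)]

theorem exists_spl (p : ι → Bool) : ∃ (a b : ℕ) (e : Fin a ⊕ Fin b ≃ ι), ∀ x, p (e x) = x.isLeft :=
  ⟨_, _, ((Fintype.equivFin _).symm.sumCongr (Fintype.equivFin _).symm).trans (Equiv.sumCompl (p ·)),
    Sum.rec (fun x => ((Fintype.equivFin {x // p x}).symm x).2)
      fun x => eq_false_of_ne_true ((Fintype.equivFin {x // ¬ p x}).symm x).2⟩

theorem mackey_fin (e : m ⊕ m' ≃ ι) (e' : k ⊕ k' ≃ ι) (α β α' β' : Cls F → ℂ)
    (h : ∑ g, par e α β g * conj (par e' α' β' g) ≠ 0) : ∃ n₁ n₂ n₃ n₄,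
    ∑ A : Matrix (Fin n₁) _ F, ∑ B : Matrix (Fin n₂) _ F, ∑ C : Matrix (Fin n₃) _ F,
      ∑ D : Matrix (Fin n₄) _ F, res α (edM A) (edM B) * res β (edM C) (edM D) *
        conj (res α' (edM A) (edM C) * res β' (edM B) (edM D)) ≠ 0 := by
  obtain ⟨_, _, e₀, h0⟩ := exists_spl fun x => (e.symm x).isLeft
  obtain ⟨_, _, e₁, h1⟩ := exists_spl fun x => (e'.symm (e₀ (.inl x))).isLeft
  obtain ⟨_, _, e₂, h2⟩ := exists_spl fun x => (e'.symm (e₀ (.inr x))).isLeft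
  refine ⟨_, _, _, _, mackey_sum ((e₁.sumCongr e₂).trans e₀) α β α' β' ?_⟩
  rwa [← funext (par_congr e _ (fun x => ?_) α β), ← funext (par_congr e' _ (fun x => ?_) α' β')]
  all_goals
    obtain ⟨(x | x) | (x | x), rfl⟩ := ((e₁.sumCongr e₂).trans e₀).surjective x <;> simp [h0, h1, h2]

theorem pmat_conj (w : Equiv.Perm (Fin n)) (g : GL (Fin n) F) :
    (GLFlag.pmat F w * g * (GLFlag.pmat F w)⁻¹).1 = g.1.submatrix w.symm w.symm := by
  ext i j
  obtain ⟨j, rfl⟩ := w.surjective j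
  simp [← map_inv, mul_apply, GLFlag.pmat_apply, ← Equiv.symm_apply_eq, Equiv.Perm.inv_def]

theorem Par_le (h : a + b = n) : GLFlag.Par F id ≤ Pp F (spl h) := fun _ hg i j =>
  GLFlag.mem_Par.1 hg _ _ (by simp [spl, Fin.lt_def]; omega)

theorem inner_infl' {α β χ : Irr F} (e : Fin α.1 ⊕ Fin β.1 ≃ Fin χ.1)
    [Fintype (Pp F e)] : classInner (fun g : Pp F e => χ.2.1 g) (infl e (cl α.2.1) (cl β.2.1)) =
      mult α.2.1 β.2.1 χ.2.1 := by
  simp only [← inner_infl e (irr_isClassFunction α.2) (irr_isClassFunction β.2) (by simp) (by simp),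
    cl_edM (irr_isClassFunction _)]

theorem isCharacter_infl' {α β : Irr F} (e : Fin α.1 ⊕ Fin β.1 ≃ ι) :
    IsCharacter _ (infl e (cl α.2.1) (cl β.2.1)) :=
  isCharacter_infl e (irr_isCharacter _) (irr_isCharacter _) (by simp) (by simp)

theorem mackey {ρ ρ' X Y χ : Irr F} (hρ : IsCusp ρ) (hρ' : IsCusp ρ') (h : R ρ X χ)
    (h' : R ρ' Y χ) : ρ = ρ' ∧ X = Y ∨ ∃ Z, R ρ' Z X ∧ R ρ Z Y := by
  classical
  obtain ⟨x, hx⟩ := exists_mk_ne_zero (isCharacter_infl' (spl h.add)) (isCharacter_infl' (spl h'.add))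
    ((inner_infl' _).trans_ne h) ((inner_infl' _).trans_ne h')
  obtain ⟨w, u, hu, v, hv, rfl⟩ := GLFlag.bruhat x
  rw [mk_mul (isClassFunction_of_isCharacter (isCharacter_infl' _)) (isClassFunction_of_isCharacter
    (isCharacter_infl' _)) (Par_le _ hu) (Par_le _ hv), mk] at hx
  simp only [extendByZero_infl, pmat_conj] at hx
  obtain ⟨n₁, n₂, n₃, n₄, h1⟩ := mackey_fin _ ((spl h'.add).trans w.symm) _ _ _ _
    ((sum_GL fun A hA => par_cl_ne_zero _ (left_ne_zero_of_mul hA)).symm.trans_ne hx)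
  obtain ⟨A, -, h2⟩ := exists_ne_zero_of_sum_ne_zero h1
  obtain ⟨B, -, h2⟩ := exists_ne_zero_of_sum_ne_zero h2
  obtain ⟨C, -, h2⟩ := exists_ne_zero_of_sum_ne_zero h2
  obtain ⟨D, -, h2⟩ := exists_ne_zero_of_sum_ne_zero h2
  simp only [ne_eq, mul_eq_zero, map_eq_zero, not_or] at h2
  have h3 := hρ.res h2.1.1
  have h4 := hρ'.res h2.2.1
  have h5 := (res_cl_ne_zero h2.1.1).2.2
  have h6 := (res_cl_ne_zero h2.2.1).2.2
  have h7 := (res_cl_ne_zero h2.1.2).2.2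
  have h8 := (res_cl_ne_zero h2.2.2).2.2
  obtain ⟨a, ρ⟩ := ρ; obtain ⟨a', ρ'⟩ := ρ'; obtain ⟨b, X⟩ := X; obtain ⟨b', Y⟩ := Y
  simp only [Fintype.card_fin] at h3 h4 h5 h6 h7 h8
  obtain rfl | ⟨rfl, rfl⟩ : n₁ = 0 ∨ n₂ = 0 ∧ n₃ = 0 := by omega
  · obtain rfl : n₂ = a := by omega
    obtain rfl : n₃ = a' := by omega
    have h9 : classInner (st n₄ ρ'.1 X.1) (st n₄ ρ.1 Y.1) ≠ 0 := fun h0 => h1 (by
      have h10 := sum_cl_cl (isClassFunction_st (b := n₄) ρ'.1 X.1) (isClassFunction_st ρ.1 Y.1)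
      have h11 := fun D : Matrix (Fin n₄) _ F => sum_cl_mul (Fintype.card_fin _) _
        (irr_isClassFunction ρ') (res (cl X.1) · (edM D))
      have h12 := fun D : Matrix (Fin n₄) _ F => sum_cl_mul (Fintype.card_fin _) _
        (irr_isClassFunction ρ) (res (cl Y.1) · (edM D))
      simp only [← cl_st _ _ _ (Fintype.card_fin _)] at h11 h12
      simp only [res_empty]
      refine sum_eq_zero fun _ _ => ?_
      rw [sum_congr rfl fun _ _ => sum_comm, sum_comm, sum_congr rfl (g := fun D => (Fintype.card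
        (GL (Fin n₃) F) * conj (Fintype.card (GL (Fin n₂) F) : ℂ)) * (cl (st n₄ ρ'.1 X.1) (edM D) *
          conj (cl (st n₄ ρ.1 Y.1) (edM D)))), ← mul_sum, h10, h0, mul_zero, mul_zero]
      intro D _
      rw [mul_mul_mul_comm, ← map_mul, ← h11, ← h12, map_sum, sum_mul_sum, sum_comm]
      exact sum_congr rfl fun _ _ => sum_congr rfl fun _ _ => by
        simp only [map_mul, Complex.conj_conj]; ring)
    obtain ⟨Z, -, h9⟩ := exists_ne_zero_of_sum_ne_zero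
      ((classInner_eq_sum_irr (isClassFunction_st _ _) _).symm.trans_ne h9)
    exact .inr ⟨⟨_, Z⟩, left_ne_zero_of_mul h9, (map_ne_zero _).1 (right_ne_zero_of_mul h9)⟩
  · obtain rfl : n₁ = a := by omega
    obtain rfl : n₁ = a' := by omega
    obtain rfl : n₄ = b := by omega
    obtain rfl : n₄ = b' := by omega
    simp only [res_empty, res_comm _ _ (edM (_ : Matrix (Fin 0) (Fin 0) F)), map_mul,
      mul_mul_mul_comm (cl ρ.1 _) (cl X.1 _), ← mul_sum, ← sum_mul,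
      sum_cl_cl (irr_isClassFunction _) (irr_isClassFunction _), classInner_irr_irr, ne_eq,
      mul_eq_zero, ite_eq_right_iff, one_ne_zero, imp_false, not_or, not_not] at h1
    exact .inl ⟨congrArg _ h1.1.2, congrArg _ (not_not.1 fun h => h1.2.2 (by simp [h]))⟩

/-- Cuspidal supports. -/
inductive Supp : Multiset {ρ : Irr F // IsCusp ρ} → Irr F → Prop
  | one : Supp 0 (one F)
  | cons {ρ X χ S} : R ρ.1 X χ → Supp S X → Supp (ρ ::ₘ S) χ

theorem Supp.deg {S} {χ : Irr F} (h : Supp S χ) : (S.map (·.1.1)).sum = χ.1 := by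
  induction h with
  | one => rfl
  | cons h _ ih => rw [Multiset.map_cons, Multiset.sum_cons, ih, h.add]

theorem exists_supp (χ : Irr F) : ∃ S, Supp S χ := by
  induction h : χ.1 using Nat.strong_induction_on generalizing χ with | _ n ih =>
  by_cases h0 : χ.1 = 0
  · exact ⟨0, eq_one h0 ▸ .one⟩
  obtain ⟨ρ, X, h1, h2⟩ := exists_cusp h0
  obtain ⟨S, hS⟩ := ih _ (by have := h2.add; have := h1.1; omega) X rfl
  exact ⟨_, .cons (ρ := ⟨ρ, h1⟩) h2 hS⟩

theorem Supp.unique {S S'} {χ : Irr F} (h : Supp S χ) (h' : Supp S' χ) : S = S' := by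
  induction hn : χ.1 using Nat.strong_induction_on generalizing χ S S' with | _ n ih =>
  rcases h with _ | @⟨ρ, X, _, T, h1, h2⟩ <;> rcases h' with _ | @⟨ρ', Y, _, T', h3, h4⟩
  · rfl
  · exact absurd (Nat.eq_zero_of_add_eq_zero_right h3.add) ρ'.2.1
  · exact absurd (Nat.eq_zero_of_add_eq_zero_right h1.add) ρ.2.1
  have h5 := fun V => ih X.1 (by have := h1.add; have := ρ.2.1; omega) (S' := V) h2
  have h6 := fun V => ih Y.1 (by have := h3.add; have := ρ'.2.1; omega) (S' := V) h4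
  obtain ⟨h, rfl⟩ | ⟨Z, h7, h8⟩ := mackey ρ.2 ρ'.2 h1 h3
  · rw [Subtype.ext h, h5 _ h4 rfl]
  · obtain ⟨V, hV⟩ := exists_supp Z
    rw [h5 _ (.cons h7 hV) rfl, h6 _ (.cons h8 hV) rfl, Multiset.cons_swap]

theorem Supp.extract {S T ρ} {χ : Irr F} (h : Supp S χ) (hS : S = ρ ::ₘ T) :
    ∃ X, R ρ.1 X χ ∧ Supp T X := by
  induction h generalizing T with
  | one => exact absurd hS Multiset.zero_ne_cons
  | cons h1 h2 ih =>
    obtain ⟨rfl, rfl⟩ | ⟨-, V, rfl, rfl⟩ := Multiset.cons_eq_cons.1 hS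
    · exact ⟨_, h1, h2⟩
    · obtain ⟨Z, h3, h4⟩ := ih rfl
      obtain ⟨Y, h5, h6⟩ := h1.left_comm h3
      exact ⟨Y, h5, .cons h6 h4⟩

end CfsgLib.Cusp
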