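import Cfsg.Agent.Lib.Cusp.Res

/-!
# Maximal parabolic subgroups of general linear groups and the Mackey summands
-/

set_option autoImplicit false
set_option linter.unusedSectionVars false

namespace CfsgLib.Cusp

open Cfsg CfsgLib.Char CfsgLib.MatConj Finset Matrix
open scoped ComplexConjugate BigOperators

variable {F : Type*} [Field F] [Fintype F] [DecidableEq F] {ι κ m m' k k' : Type} [Fintype ι]
  [DecidableEq ι] [Fintype κ] [DecidableEq κ] [Fintype m] [DecidableEq m] [Fintype m']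
  [DecidableEq m'] [Fintype k] [DecidableEq k] [Fintype k'] [DecidableEq k'] {a b n : ℕ}

section Par

variable (e : m ⊕ m' ≃ ι)

theorem mul_apply_sum (g h : Matrix ι ι F) (i j : ι) : (g * h) i j =
    ∑ k, g i (e (.inl k)) * h (e (.inl k)) j + ∑ k, g i (e (.inr k)) * h (e (.inr k)) j := by
  rw [mul_apply, ← e.sum_comp, Fintype.sum_sum_type]

/-- The lower left block vanishes. -/
def Z (g : Matrix ι ι F) : Prop := ∀ i j, g (e (.inr i)) (e (.inl j)) = 0

instance (g : Matrix ι ι F) : Decidable (Z e g) := Fintype.decidableForallFintype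

variable (F) in
/-- Block triangular matrices. -/
def Pm : Submonoid (Matrix ι ι F) where
  carrier := {g | Z e g}
  one_mem' i j := one_apply_ne (by simp)
  mul_mem' {g h} hg hh i j := by simp [mul_apply_sum e, hg _, hh _]

variable (F) in
/-- The stabiliser of a coordinate subspace. -/
def Pp : Subgroup (GL ι F) where
  toSubmonoid := (Pm F e).comap (Units.coeHom _)
  inv_mem' {g} hg := Submonoid.powers_le.2 hg (mem_powers_iff_mem_zpowers.2 (by simp))

/-- The upper left block. -/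
def h₁ : Pp F e →* Matrix m m F where
  toFun g := g.1.1.submatrix (e ∘ .inl) (e ∘ .inl)
  map_one' := submatrix_one _ (e.injective.comp Sum.inl_injective)
  map_mul' g h := by ext; simp [mul_apply_sum e, (show Z e h.1.1 from h.2) _, mul_apply]

/-- The lower right block. -/
def h₂ : Pp F e →* Matrix m' m' F where
  toFun g := g.1.1.submatrix (e ∘ .inr) (e ∘ .inr)
  map_one' := submatrix_one _ (e.injective.comp Sum.inr_injective)
  map_mul' g h := by ext; simp [mul_apply_sum e, (show Z e g.1.1 from g.2) _, mul_apply]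

/-- Inflation from the Levi quotient, extended by zero. -/
noncomputable def par (α β : Cls F → ℂ) (g : Matrix ι ι F) : ℂ :=
  if Z e g then α (edM (g.submatrix (e ∘ .inl) (e ∘ .inl))) *
    β (edM (g.submatrix (e ∘ .inr) (e ∘ .inr))) else 0

theorem par_fromBlocks (α β : Cls F → ℂ) (A : Matrix m m F) (B : Matrix m m' F) (C : Matrix m' m F)
    (D : Matrix m' m' F) : par e α β ((fromBlocks A B C D).submatrix e.symm e.symm) =
      if C = 0 then α (edM A) * β (edM D) else 0 := by
  refine if_congr (by simp [Z, ← Matrix.ext_iff]) ?_ rfl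
  congr 3 <;> ext <;> simp

theorem par_congr (e' : k ⊕ k' ≃ ι) (h : ∀ x, (e.symm x).isLeft = (e'.symm x).isLeft)
    (α β : Cls F → ℂ) (g : Matrix ι ι F) : par e α β g = par e' α β g := by
  have h1 : ∀ {k k' : Type} (e : k ⊕ k' ≃ ι) x, x ∈ Set.range (e ∘ .inl) ↔ (e.symm x).isLeft :=
    fun e x => by obtain ⟨x | x, rfl⟩ := e.surjective x <;> simp
  have h2 : ∀ {k k' : Type} (e : k ⊕ k' ≃ ι) x, x ∈ Set.range (e ∘ .inr) ↔ ¬ (e.symm x).isLeft :=
    fun e x => by obtain ⟨x | x, rfl⟩ := e.surjective x <;> simp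
  have h3 : ∀ {k k' : Type} (e : k ⊕ k' ≃ ι), Z e g ↔
      ∀ x ∈ Set.range (e ∘ .inr), ∀ y ∈ Set.range (e ∘ .inl), g x y = 0 := fun e => by simp [Z]
  have r1 : Set.range (e ∘ .inl) = Set.range (e' ∘ .inl) := Set.ext fun x => by rw [h1, h1, h]
  have r2 : Set.range (e ∘ .inr) = Set.range (e' ∘ .inr) := Set.ext fun x => by rw [h2, h2, h]
  refine if_congr (by rw [h3, h3, r1, r2]) ?_ rfl
  rw [edM_submatrix_congr (e.injective.comp Sum.inl_injective) (e'.injective.comp Sum.inl_injective) r1,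
    edM_submatrix_congr (e.injective.comp Sum.inr_injective) (e'.injective.comp Sum.inr_injective) r2]

theorem par_cl_ne_zero {α : GL (Fin a) F → ℂ} {β : GL (Fin b) F → ℂ} {g : Matrix ι ι F}
    (h : par e (cl α) (cl β) g ≠ 0) : IsUnit g := by
  obtain ⟨g, rfl⟩ := (reindex e e).surjective g
  rw [← fromBlocks_toBlocks g, reindex_apply, par_fromBlocks, ne_eq, ite_eq_right_iff,
    Classical.not_imp] at h
  rw [← fromBlocks_toBlocks g, reindex_apply, isUnit_submatrix_equiv, h.1, isUnit_fromBlocks_zero₂₁]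
  exact ⟨(of_cl_ne_zero (left_ne_zero_of_mul h.2)).1, (of_cl_ne_zero (right_ne_zero_of_mul h.2)).1⟩

theorem sum_par {α : GL (Fin a) F → ℂ} {β : GL (Fin b) F → ℂ} (hα : IsClassFunction _ α)
    (hβ : IsClassFunction _ β) (ha : Fintype.card m = a) (hb : Fintype.card m' = b)
    (f : GL (Fin n) F → ℂ) : ∑ g, cl f (edM g) * conj (par e (cl α) (cl β) g) =
      Fintype.card (Matrix m m' F) * Fintype.card (GL m F) * Fintype.card (GL m' F) * mult α β f := by
  have h1 := sum_cl_mul ha α hα fun s => 𝔼 D : GL (Fin b) F, conj (β D) * res (cl f) s (edM D.1)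
  have h2 : mult α β f = 𝔼 A : GL (Fin a) F, conj (α A) *
      𝔼 D : GL (Fin b) F, conj (β D) * res (cl f) (edM A.1) (edM D.1) := by
    simp only [mult, classInner_eq_expect, st, expect_mul, mul_expect]
    rw [expect_comm]
    exact expect_congr rfl fun _ _ => expect_congr rfl fun _ _ => by ring
  rw [h2, mul_right_comm _ _ (Fintype.card (GL m' F) : ℂ), mul_assoc, ← h1, sum_blocks e e, mul_sum]
  refine sum_congr rfl fun A _ => ?_
  rw [mul_left_comm, mul_assoc, ← sum_cl_mul hb β hβ (res (cl f) (edM A)), mul_sum, mul_sum]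
  refine sum_congr rfl fun D _ => ?_
  simp only [par_fromBlocks, edM_submatrix, apply_ite conj, map_zero, mul_ite, mul_zero, sum_ite_eq',
    mem_univ, if_true, res_edM, ← sum_mul, ← Fintype.card_mul_expect, map_mul]
  ring

/-- The inflated character. -/
noncomputable def infl (α β : Cls F → ℂ) (g : Pp F e) : ℂ := α (edM (h₁ e g)) * β (edM (h₂ e g))

theorem extendByZero_infl (α β : Cls F → ℂ) (g : GL ι F) :
    extendByZero (Pp F e) (infl e α β) g = par e α β g.1 := by
  by_cases h : Z e g.1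
  · rw [par, if_pos h, extendByZero_of_mem _ _ (show g ∈ Pp F e from h)]; rfl
  · rw [par, if_neg h, extendByZero_of_not_mem _ _ (show g ∉ Pp F e from h)]

theorem isCharacter_infl {α : GL (Fin a) F → ℂ} {β : GL (Fin b) F → ℂ} (hα : IsCharacter _ α)
    (hβ : IsCharacter _ β) (ha : Fintype.card m = a) (hb : Fintype.card m' = b) :
    IsCharacter _ (infl e (cl α) (cl β)) := by
  have h1 := isCharacter_comp (h₁ e).toHomUnits (isCharacter_cl hα ha)
  have h2 := isCharacter_comp (h₂ e).toHomUnits (isCharacter_cl hβ hb)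
  simp only [MonoidHom.coe_toHomUnits] at h1 h2
  exact isCharacter_mul h1 h2

theorem inner_infl [Fintype (Pp F e)] {α : GL (Fin a) F → ℂ} {β : GL (Fin b) F → ℂ}
    (hα : IsClassFunction _ α) (hβ : IsClassFunction _ β) (ha : Fintype.card m = a)
    (hb : Fintype.card m' = b) (f : GL (Fin n) F → ℂ) :
    classInner (fun g : Pp F e => cl f (edM g.1.1)) (infl e (cl α) (cl β)) = mult α β f := by
  have h : ∀ {a b n} {α : GL (Fin a) F → ℂ} {β : GL (Fin b) F → ℂ} (f : GL (Fin n) F → ℂ),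
      ∑ g : Pp F e, cl f (edM g.1.1) * conj (infl e (cl α) (cl β) g) =
        ∑ g, cl f (edM g) * conj (par e (cl α) (cl β) g) := fun f => by
    simp only [mul_comm (cl f _)]
    rw [← sum_extendByZero_mul _ _ fun g : GL ι F => cl f (edM g.1), ← sum_GL fun A hA =>
      par_cl_ne_zero e (by simpa using left_ne_zero_of_mul hA)]
    simp only [extendByZero_conj, extendByZero_infl]
  have h0 : ∀ {n} {ι : Type} [Fintype ι] [DecidableEq ι] {A : Matrix ι ι F}, IsUnit A →
      Fintype.card ι = n → cl (fun _ : GL (Fin n) F => 1) (edM A) = 1 :=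
    fun h h' => dif_pos (exists_GL.2 ⟨h, h'⟩)
  have h1 := (h fun _ : GL (Fin (a + b)) F => 1).trans
    (sum_par e (isClassFunction_const 1) (isClassFunction_const 1) ha hb _)
  have h2 : ∀ g : Pp F e, infl e (cl fun _ : GL (Fin a) F => 1) (cl fun _ : GL (Fin b) F => 1) g = 1 :=
    fun g => by rw [infl, h0 ((Group.isUnit g).map _) ha, h0 ((Group.isUnit g).map _) hb, mul_one]
  have h3 : ∀ (A : GL (Fin a) F) (D : GL (Fin b) F) φ, cl (fun _ : GL (Fin (a + b)) F => 1)
    (edM (fromBlocks A.1 φ 0 D.1)) = 1 := fun A D φ => h0 (by simp [isUnit_fromBlocks_zero₂₁]) (by simp)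
  simp only [h0 (Units.isUnit _) (by rw [← Fintype.card_congr e, Fintype.card_sum, ha, hb]), h2, mult,
    classInner_eq_expect, st, res_edM, h3, map_one, mul_one, Fintype.expect_const, sum_const,
    card_univ, nsmul_eq_mul] at h1
  rw [classInner, h, sum_par e hα hβ ha hb, ← h1, ← Nat.card_eq_fintype_card,
    inv_mul_cancel_left₀ natCard_ne_zero]

end Par

/-- The standard splitting of `Fin n`. -/
def spl (h : a + b = n) : Fin a ⊕ Fin b ≃ Fin n := finSumFinEquiv.trans (finCongr h)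

theorem res_cl_eq_zero {f : GL (Fin n) F → ℂ} (h : a + b ≠ n) (A : Matrix (Fin a) (Fin a) F)
    (D : Matrix (Fin b) (Fin b) F) : res (cl f) (edM A) (edM D) = 0 :=
  not_not.1 fun h' => h (by simpa using (res_cl_ne_zero h').2.2)

theorem add_eq_of_mult {α : GL (Fin a) F → ℂ} {β : GL (Fin b) F → ℂ} {f : GL (Fin n) F → ℂ}
    (h : mult α β f ≠ 0) : a + b = n :=
  not_not.1 fun h' => h (by simp [mult, classInner_eq_expect, st, res_cl_eq_zero h'])

theorem exists_mult_eq_nat {α : GL (Fin a) F → ℂ} {β : GL (Fin b) F → ℂ} {f : GL (Fin n) F → ℂ}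
    (hα : IsCharacter _ α) (hβ : IsCharacter _ β) (hf : IsCharacter _ f) :
    ∃ r : ℕ, mult α β f = r := by
  classical
  by_cases h : mult α β f = 0
  · exact ⟨0, by simp [h]⟩
  rw [← inner_infl (spl (add_eq_of_mult h)) (isClassFunction_of_isCharacter hα)
    (isClassFunction_of_isCharacter hβ) (by simp) (by simp)]
  exact exists_classInner_eq_nat (isCharacter_restrict _ (isCharacter_cl hf (by simp)))
    (isCharacter_infl _ hα hβ (by simp) (by simp))

theorem isCharacter_st {α : GL (Fin a) F → ℂ} {f : GL (Fin n) F → ℂ} (hα : IsCharacter _ α)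
    (hf : IsCharacter _ f) : IsCharacter _ (st b α f) :=
  isCharacter_of_inner_nat (isClassFunction_st α f) fun _ h =>
    exists_mult_eq_nat hα (isCharacter_of_isIrr h) hf

theorem res_empty [IsEmpty m] (f : Cls F → ℂ) (A : Matrix m m F) (D : Matrix ι ι F) :
    res f (edM A) (edM D) = f (edM D) := by
  rw [res_edM, expect_congr rfl (g := fun _ => f (edM D)) fun φ _ => by
    rw [← edM_submatrix (Equiv.emptySum m ι).symm]; rfl, Fintype.expect_const]

/-- The Harish-Chandra restriction of a class function in terms of the multiplicities. -/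
theorem res_eq_sum {f : GL (Fin n) F → ℂ} (A : GL (Fin a) F) (D : GL (Fin b) F) :
    res (cl f) (edM A.1) (edM D.1) = ∑ α : IrrCharacter (GL (Fin a) F),
      ∑ β : IrrCharacter (GL (Fin b) F), mult α.1 β.1 f * (α.1 A * β.1 D) := by
  have h1 := congrFun (classFun_eq_sum (isClassFunction_edM fun s => res (cl f) s (edM D.1))) A
  rw [h1, Finset.sum_apply]
  refine sum_congr rfl fun α _ => ?_
  have h2 := congrFun (classFun_eq_sum (isClassFunction_st (b := b) α.1 f)) D
  simp only [Finset.sum_apply, Pi.smul_apply, smul_eq_mul] at h2 ⊢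
  simp only [mult, mul_left_comm _ (α.1 A), ← mul_sum, ← h2]
  simp only [st, classInner_eq_expect, mul_comm]

theorem sum_eq_res (f : Cls F → ℂ) (A : Matrix ι ι F) (D : Matrix m m F) :
    ∑ φ, f (edM (fromBlocks A φ 0 D)) = Fintype.card (Matrix ι m F) * res f (edM A) (edM D) := by
  rw [res_edM, Fintype.card_mul_expect]

theorem mackey_sum {m₁ m₂ m₃ m₄ : Type} [Fintype m₁] [DecidableEq m₁] [Fintype m₂] [DecidableEq m₂]
    [Fintype m₃] [DecidableEq m₃] [Fintype m₄] [DecidableEq m₄] (E : (m₁ ⊕ m₂) ⊕ (m₃ ⊕ m₄) ≃ ι)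
    (α β α' β' : Cls F → ℂ) (h : ∑ g, par E α β g *
      conj (par ((Equiv.sumSumSumComm _ _ _ _).trans E) α' β' g) ≠ 0) :
    ∑ A : Matrix m₁ m₁ F, ∑ B : Matrix m₂ m₂ F, ∑ C : Matrix m₃ m₃ F, ∑ D : Matrix m₄ m₄ F,
      res α (edM A) (edM B) * res β (edM C) (edM D) *
        conj (res α' (edM A) (edM C) * res β' (edM B) (edM D)) ≠ 0 := by
  have h1 : ∀ A B C D (φ₁ : Matrix m₁ m₂ F) (φ₂ : Matrix m₁ m₃ F) φ₃ (φ₄ : Matrix m₂ m₄ F) φ₅ X Y W,
      par ((Equiv.sumSumSumComm _ _ _ _).trans E) α' β' ((fromBlocks (fromBlocks A φ₁ X B)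
        (fromBlocks φ₂ φ₃ Y φ₄) 0 (fromBlocks C φ₅ W D)).submatrix E.symm E.symm) =
      if X = 0 then if W = 0 then if Y = 0 then α' (edM (fromBlocks A φ₂ 0 C)) *
        β' (edM (fromBlocks B φ₄ 0 D)) else 0 else 0 else 0 := fun A B C D φ₁ φ₂ φ₃ φ₄ φ₅ X Y W => by
    rw [← ite_and, ← ite_and, ← if_congr (P := fromBlocks X Y 0 W = 0) (by
      rw [← fromBlocks_zero, fromBlocks_inj]; tauto) rfl rfl, ← par_fromBlocks
      ((Equiv.sumSumSumComm m₁ m₃ m₂ m₄).trans E) _ _ _ (fromBlocks φ₁ φ₃ 0 φ₅)]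
    congr 1
    ext i j
    obtain ⟨(i | i) | (i | i), rfl⟩ := E.surjective i <;>
      obtain ⟨(j | j) | (j | j), rfl⟩ := E.surjective j <;> simp
  refine fun h0 => h ?_
  rw [sum_blocks E E]
  simp only [par_fromBlocks, ite_mul, zero_mul, sum_ite_eq', mem_univ, if_true]
  have h2 : ∀ {m₁ m₂ m₃ m₄ : Type} [Fintype m₁] [DecidableEq m₁] [Fintype m₂] [DecidableEq m₂]
      [Fintype m₃] [DecidableEq m₃] [Fintype m₄] [DecidableEq m₄]
      (Φ : Matrix (m₁ ⊕ m₂) (m₃ ⊕ m₄) F → ℂ), ∑ g, Φ g = ∑ A, ∑ D, ∑ B, ∑ C, Φ (fromBlocks A B C D) :=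
    fun Φ => sum_blocks (.refl _) (.refl _) Φ
  simp only [h2]
  simp only [h1, apply_ite conj, map_zero, mul_ite, mul_zero, sum_ite_irrel, sum_const_zero,
    sum_ite_eq', mem_univ, if_true, map_mul, ← mul_sum, ← sum_mul, ← map_sum, sum_eq_res]
  simp only [sum_const, nsmul_eq_mul, map_natCast, map_mul, mul_assoc, ← mul_sum, ← sum_mul, sum_eq_res]
  refine mul_eq_zero_of_right _ (Eq.trans ?_ (mul_eq_zero_of_right ((Fintype.card (Matrix m₃ m₄ F) : ℂ)
    * Fintype.card (Matrix m₁ m₃ F) * Fintype.card (Matrix m₁ m₄ F) * Fintype.card (Matrix m₂ m₄ F)) h0))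
  simp only [mul_sum, map_mul, card_univ]
  exact sum_congr rfl fun _ _ => sum_congr rfl fun _ _ => sum_congr rfl fun _ _ =>
    sum_congr rfl fun _ _ => by ring

end CfsgLib.Cusp
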