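import Cfsg.Agent.Lib.Cusp.Hered

/-!
# Degrees of cuspidal characters and the number of generic characters
-/

set_option autoImplicit false
set_option linter.unusedSectionVars false

namespace CfsgLib.Cusp

open Cfsg CfsgLib.Char CfsgLib.MatConj Finset Matrix
open scoped ComplexConjugate BigOperators

variable {F : Type*} [Field F] [Fintype F] [DecidableEq F] {ι κ m m' k k' : Type} [Fintype ι]
  [DecidableEq ι] [Fintype κ] [DecidableEq κ] [Fintype m] [DecidableEq m] [Fintype m']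
  [DecidableEq m'] [Fintype k] [DecidableEq k] [Fintype k'] [DecidableEq k'] {a b n : ℕ}

variable (ψ : AddChar F ℂ) (f : Cls F → ℂ) {l : ℕ}

/-- The first basis vector. -/
def ev (l : ℕ) : Fin l → F := fun j => if j.1 = 0 then 1 else 0

theorem sum_wh_succ (Φ : Matrix (Fin (l + 1)) (Fin (l + 1)) F → ℂ) : ∑ u, Φ u * conj (wh ψ u) =
    ∑ u, ∑ v, Φ ((fromBlocks 1 v 0 u).submatrix (spl (add_comm 1 l)).symm (spl (add_comm 1 l)).symm) *
      conj (ψ ((v *ᵥ ev l) 0) * wh ψ u) := by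
  have h : ∀ A : Matrix (Fin 1) (Fin 1) F, wh ψ A = if A = 1 then 1 else 0 := fun A =>
    if_congr (by simp [Uni, ← Matrix.ext_iff, Fin.forall_fin_one]) (by simp [sd]) rfl
  rw [sum_blocks (spl (add_comm 1 l)) (spl (add_comm 1 l))]
  simp only [wh_blocks, h, ite_mul, zero_mul, one_mul, apply_ite conj, map_zero, mul_ite, mul_zero,
    sum_ite_eq', mem_univ, if_true, sum_ite_irrel, sum_const_zero]
  simp [mulVec, dotProduct, ev]

theorem card_mat : (Fintype.card (Matrix m m' F) : ℂ) =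
    Fintype.card F ^ (Fintype.card m * Fintype.card m') := by
  rw [Fintype.card_congr Matrix.of.symm, Fintype.card_fun, Fintype.card_fun, ← pow_mul, mul_comm,
    Nat.cast_pow]

theorem card_U_succ : (Nat.card (U F (l + 1)) : ℂ) = Fintype.card F ^ l * Nat.card (U F l) := by
  rw [card_U, card_U, WS, WS, sum_wh_succ]
  simp [card_mat, mul_sum]

theorem card_U_eq : (Nat.card (U F l) : ℂ) = ∏ i ∈ range l, (Fintype.card F : ℂ) ^ i := by
  induction l with
  | zero => rw [Nat.card_unique, Nat.cast_one, prod_range_zero]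
  | succ l ih => rw [card_U_succ, ih, prod_range_succ, mul_comm]

variable (l) in
/-- Partial Whittaker functionals. -/
noncomputable def aS (x : κ → F) : ℂ := ∑ u : Matrix (Fin l) (Fin l) F, ∑ φ : Matrix κ (Fin l) F,
  f (edM (fromBlocks 1 φ 0 u)) * conj (ψ (x ⬝ᵥ φ *ᵥ ev l) * wh ψ u)

theorem aS_vecMul {P : Matrix κ ι F} {P' : Matrix ι κ F} (h1 : P * P' = 1) (h2 : P' * P = 1)
    (x : κ → F) : aS ψ f l (x ᵥ* P) = aS ψ f l x := by
  refine sum_congr rfl fun u _ => Fintype.sum_equiv ⟨fun φ => P * φ, fun φ => P' * φ, fun φ => ?_,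
    fun φ => ?_⟩ _ _ fun φ => ?_
  · simp [← Matrix.mul_assoc, h2]
  · simp [← Matrix.mul_assoc, h1]
  rw [← dotProduct_mulVec, mulVec_mulVec, Transp.edM_eq (G := 0) (M := fromBlocks 1 (P * φ) 0 u)
    ⟨fromBlocks P' 0 0 1, fromBlocks P 0 0 1, ?_, ?_, ?_, rfl⟩]
  · rfl
  all_goals simp [fromBlocks_multiply, h1, h2, ← Matrix.mul_assoc]

theorem aS_eq {x : κ → F} {y : ι → F} (hx : x ≠ 0) (hy : y ≠ 0)
    (h : Fintype.card κ = Fintype.card ι) : aS ψ f l x = aS ψ f l y := by
  obtain ⟨i, hi⟩ := Function.ne_iff.1 hx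
  have h1 : ∀ {ι : Type} [Fintype ι] [DecidableEq ι] (E : κ ≃ ι) (y : ι → F), y (E i) ≠ 0 →
      aS ψ f l y = aS ψ f l (Pi.single i 1) := fun E y hy => by
    have h2 : IsUnit (updateRow 1 (E i) y).det := by
      rw [← cramer_transpose_apply, transpose_one, cramer_one]; exact hy.isUnit
    rw [← aS_vecMul ψ f (P := (updateRow 1 (E i) y).submatrix E id)
      (P' := (updateRow 1 (E i) y)⁻¹.submatrix id E) (by
        rw [← Equiv.coe_refl, submatrix_mul_equiv, mul_nonsing_inv _ h2, submatrix_one_equiv])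
      (by rw [submatrix_mul_equiv, nonsing_inv_mul _ h2, submatrix_id_id]), single_one_vecMul]
    congr 1
    ext; simp
  obtain ⟨j, hj⟩ := Function.ne_iff.1 hy
  rw [h1 (.refl _) x hi, h1 ((Fintype.equivOfCardEq h).trans (.swap (Fintype.equivOfCardEq h i) j)) y
    (by simpa using hj)]

theorem aS_zero : aS ψ f l (0 : κ → F) =
    Fintype.card F ^ (Fintype.card κ * l) * WS l ψ (res f (edM (1 : Matrix κ κ F))) := by
  simp only [aS, WS, zero_dotProduct, AddChar.map_zero_eq_one, one_mul, ← sum_mul, sum_eq_res,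
    mul_assoc, ← mul_sum, card_mat, Fintype.card_fin]

theorem aS_nil (x : κ → F) : aS ψ f 0 x = f (edM (1 : Matrix κ κ F)) := by
  have h : ∀ u : Matrix (Fin 0) (Fin 0) F, wh ψ u = 1 := fun u => by simp [wh, Uni, sd]
  simp only [aS, h, mulVec_empty, dotProduct_zero, AddChar.map_zero_eq_one, map_one, mul_one,
    sum_eq_res, res_comm f (edM (1 : Matrix κ κ F)), res_empty]
  simp [card_mat, card_univ]

theorem sum_dotProduct (hψ : ψ.IsPrimitive) (v : κ → F) :
    ∑ x, ψ (x ⬝ᵥ v) = if v = 0 then (Fintype.card F : ℂ) ^ Fintype.card κ else 0 := by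
  have : ∀ x : κ → F, ψ (x ⬝ᵥ v) = ∏ i, ψ (x i * v i) := fun x =>
    map_prod ψ.toMonoidHom (fun i => Multiplicative.ofAdd (x i * v i)) univ
  simp only [this]
  rw [← Fintype.piFinset_univ, ← prod_univ_sum (fun _ => univ) fun i x => ψ (x * v i)]
  simp [AddChar.sum_mulShift _ hψ, Fintype.prod_ite_zero, funext_iff]

theorem sum_aS (hψ : ψ.IsPrimitive) : ∑ x : κ → F, aS ψ f (l + 1) x =
    Fintype.card F ^ Fintype.card κ * aS ψ f l (Sum.elim 0 1 : κ ⊕ Fin 1 → F) := by
  simp only [aS, map_mul, ← mul_assoc, ← sum_mul]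
  rw [sum_comm]
  simp only [← sum_mul]
  rw [sum_wh_succ, mul_sum]
  refine sum_congr rfl fun u _ => ?_
  have h0 : ∀ (φ : Matrix κ _ F) i, (φ *ᵥ ev (l + 1)) i = φ i (spl (add_comm 1 l) (.inl 0)) :=
    fun φ i => by simp [mulVec, dotProduct, ev]; rfl
  simp only [sum_comm (s := (univ : Finset (κ → F))), ← mul_sum, ← map_sum, sum_dotProduct ψ hψ]
  simp only [sum_mul, mul_sum, ← Fintype.sum_prod_type']
  refine (Fintype.sum_of_injective (fun φ => (φ.toRows₂, (fromCols 0 φ.toRows₁).submatrix id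
    (spl (add_comm 1 l)).symm)) (fun φ φ' h => ?_) _ _ (fun x hx => ?_) fun φ => ?_).symm
  · rw [← fromRows_toRows φ, ← fromRows_toRows φ', (Prod.mk.inj h).1]
    congr 1
    ext i j
    simpa using congrFun₂ (Prod.mk.inj h).2 i (spl (add_comm 1 l) (.inr j))
  · rw [if_neg fun h => hx ⟨fromRows (x.2.submatrix id (spl (add_comm 1 l) ∘ .inr)) x.1,
      Prod.ext (by simp) ?_⟩, map_zero, mul_zero, zero_mul]
    ext i j
    obtain ⟨j | j, rfl⟩ := (spl (add_comm 1 l)).surjective j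
    · rw [Subsingleton.elim j 0, ← h0 x.2, h]; simp
    · simp
  · rw [if_pos (funext fun i => by simp [h0]), ← edM_submatrix ((Equiv.sumAssoc _ _ _).trans
      ((Equiv.refl κ).sumCongr (spl (add_comm 1 l)))), show (Sum.elim 0 1 : κ ⊕ Fin 1 → F) ⬝ᵥ φ *ᵥ ev l =
        (φ.toRows₂ *ᵥ ev l) 0 by simp [dotProduct, mulVec], show submatrix _ _ _ = fromBlocks 1 φ 0 u by
      ext ((i | i) | i) ((j | j) | j) <;> simp [one_apply]]
    simp only [map_mul, map_pow, map_natCast]
    ring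

variable (l) in
/-- The normalised Whittaker functional. -/
noncomputable def WN : ℂ := (Nat.card (U F l) : ℂ)⁻¹ * WS l ψ f

/-- Normalised partial Whittaker functionals. -/
noncomputable def aN (k l : ℕ) : ℂ :=
  (Fintype.card F ^ (k * l) * Nat.card (U F l) : ℂ)⁻¹ * aS ψ f l (1 : Fin k → F)

theorem aN_zero (k : ℕ) : aN ψ f k 0 = f (edM (1 : Matrix (Fin k) (Fin k) F)) := by
  simp [aN, aS_nil, -Nat.card_eq_fintype_card]

theorem aN_succ (hψ : ψ.IsPrimitive) (k l : ℕ) : aN ψ f (k + 1) l =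
    WN ψ (res f (edM (1 : Matrix (Fin k) (Fin k) F))) (l + 1) +
      (Fintype.card F ^ k - 1) * aN ψ f k (l + 1) := by
  have h := sum_aS ψ f (κ := Fin k) (l := l) hψ
  rw [aS_eq ψ f (x := Sum.elim 0 1) (y := (1 : Fin (k + 1) → F)) (Function.ne_iff.2 ⟨.inr 0, by simp⟩)
    one_ne_zero (by simp), ← add_sum_erase _ _ (mem_univ 0), aS_zero, sum_congr rfl fun x hx =>
      aS_eq ψ f (ne_of_mem_erase hx) (y := (1 : Fin k → F)) (fun h => ne_of_mem_erase hx (by
        rw [← mul_one x, h, mul_zero])) rfl, sum_const, card_erase_of_mem (mem_univ _), nsmul_eq_mul,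
    Nat.cast_sub (card_pos.2 univ_nonempty)] at h
  have h1 := natCard_ne_zero (G := U F l)
  have h2 : (Fintype.card F : ℂ) ≠ 0 := Nat.cast_ne_zero.2 Fintype.card_ne_zero
  simp only [card_univ, Fintype.card_fun, Fintype.card_fin, Nat.cast_pow, Nat.cast_one] at h
  simp only [aN, WN, card_U_succ]
  field_simp
  linear_combination -(Fintype.card F : ℂ) ^ (l + k * l) * h

theorem WN_one : WN ψ (res f (edM (1 : Matrix (Fin 0) (Fin 0) F))) l = WN ψ f l := by
  simp only [WN, WS, res_empty]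

theorem IsCusp.degree (hψ : ψ.IsPrimitive) {ρ : Irr F} (hρ : IsCusp ρ) :
    W ψ ρ.2.1 = 1 ∧ ρ.2.1 1 = ∏ i ∈ Ico 1 ρ.1, ((Fintype.card F : ℂ) ^ i - 1) := by
  obtain ⟨_ | l, ρ⟩ := ρ
  · exact absurd rfl hρ.1
  have key : ∀ k j, k + j = l → aN ψ (cl ρ.1) (k + 1) j =
      (∏ i ∈ Ico 1 (k + 1), ((Fintype.card F : ℂ) ^ i - 1)) * W ψ ρ.1 := fun k => by
    induction k with
    | zero =>
      intro j h
      rw [aN_succ _ _ hψ, WN_one, W_eq _ (irr_isClassFunction ρ), show j = l by omega]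
      simp [WN]
    | succ k ih =>
      intro j h
      rw [aN_succ _ _ hψ, ih _ (by omega), prod_Ico_succ_top (by omega : 1 ≤ k + 1), WN, WS,
        sum_eq_zero fun u _ => mul_eq_zero_of_left (not_not.1 fun h => by simpa using hρ.res h) _]
      ring
  have h := key l 0 rfl
  rw [aN_zero, ← Units.val_one (α := Matrix _ _ F), cl_edM (irr_isClassFunction ρ)] at h
  have h1 := (W_irr ψ hψ ρ.2).resolve_left fun h0 => irr_one_ne_zero ρ.2 (by rw [h, h0, mul_zero])
  exact ⟨h1, by rw [h, h1, mul_one]⟩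

variable (l) in
/-- The Gelfand-Graev character. -/
noncomputable def GG : GL (Fin l) F → ℂ := indFun (U F l) (uc l ψ)

theorem isClassFunction_GG : IsClassFunction _ (GG ψ l) := isClassFunction_indFun _ _

theorem inner_GG (hψ : ψ.IsPrimitive) (χ : IrrCharacter (GL (Fin l) F)) :
    classInner (GG ψ l) χ.1 = W ψ χ.1 := by
  rw [← classInner_conj_symm, GG, classInner_indFun_right _ _ (irr_isClassFunction χ), ← W]
  rcases W_irr ψ hψ χ.2 with h | h <;> simp [h]

theorem GG_eq (hψ : ψ.IsPrimitive) : GG ψ l = ∑ χ : IrrCharacter _, W ψ χ.1 • χ.1 := by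
  simp only [← inner_GG ψ hψ, ← classFun_eq_sum (isClassFunction_GG ψ)]

theorem W_GG (hψ : ψ.IsPrimitive) :
    W ψ (GG ψ l) = Nat.card {χ : IrrCharacter (GL (Fin l) F) // W ψ χ.1 ≠ 0} := by
  classical
  rw [W, ← classInner_indFun_right _ _ (isClassFunction_GG ψ), ← GG, classInner_eq_sum_irr
    (isClassFunction_GG ψ), Nat.card_eq_fintype_card, Fintype.card_subtype, natCast_card_filter]
  refine sum_congr rfl fun χ _ => ?_
  rcases W_irr ψ hψ χ.2 with h | h <;> simp [inner_GG ψ hψ, h]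

theorem ne_one_of_prim (hψ : ψ.IsPrimitive) : ψ ≠ 1 := by simpa using hψ one_ne_zero

theorem res_GG (hψ : ψ.IsPrimitive) (h : b + a = n) (A : GL (Fin a) F) (D : GL (Fin b) F) :
    res (cl (GG ψ n)) (edM A.1) (edM D.1) = GG ψ a A * GG ψ b D := by
  simp only [res_eq_sum, GG_eq ψ hψ, mult_sum, Finset.sum_apply, Pi.smul_apply, smul_eq_mul,
    sum_mul_sum, mul_comm (W ψ _) (mult _ _ _)]
  refine sum_congr rfl fun α _ => sum_congr rfl fun β _ => ?_
  rw [sum_mult_W ψ (ne_one_of_prim ψ hψ) ⟨_, α⟩ ⟨_, β⟩ h]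
  ring

theorem GG_one : GG ψ l 1 = ∏ i ∈ Ico 1 (l + 1), ((Fintype.card F : ℂ) ^ i - 1) := by
  have h := congrArg (Nat.cast : ℕ → ℂ) ((U F l).index_mul_card.trans (card_GL_field l))
  rw [Nat.cast_mul, Nat.cast_prod, Fintype.prod_congr _ _ fun i : Fin l => Nat.cast_sub
    (Nat.pow_le_pow_right Fintype.card_pos i.2.le), Fin.prod_univ_eq_prod_range fun i =>
    ((Fintype.card F ^ l : ℕ) : ℂ) - (Fintype.card F ^ i : ℕ)] at h
  rw [GG, indFun_one, map_one, mul_one, ← mul_left_inj' (natCard_ne_zero (G := U F l)), h, card_U_eq,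
    prod_Ico_eq_prod_range, Nat.add_sub_cancel, ← prod_range_reflect
      (fun i => (Fintype.card F : ℂ) ^ (1 + i) - 1), ← prod_mul_distrib]
  refine prod_congr rfl fun i hi => ?_
  rw [sub_mul, ← pow_add, show 1 + (l - 1 - i) + i = l by have := mem_range.1 hi; omega]
  simp

theorem sum_W_GG (hψ : ψ.IsPrimitive) :
    ∑ i ∈ range l, W ψ (GG ψ (i + 1)) = (Fintype.card F : ℂ) ^ l - 1 := by
  obtain _ | l := l
  · simp
  have key : ∀ k j, k + j = l → aN ψ (cl (GG ψ (l + 1))) (k + 1) j =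
      GG ψ k 1 * ∑ i ∈ range (k + 1), W ψ (GG ψ (l - i + 1)) := fun k => by
    induction k with
    | zero =>
      intro j h
      rw [aN_succ _ _ hψ, WN_one, sum_range_one, W_eq _ (isClassFunction_GG ψ), show j = l by omega]
      simp [WN, GG_one]
    | succ k ih =>
      intro j h
      have : WN ψ (res (cl (GG ψ (l + 1))) (edM (1 : Matrix (Fin (k + 1)) _ F))) (j + 1) =
          GG ψ (k + 1) 1 * W ψ (GG ψ (j + 1)) := by
        rw [WN, W_eq _ (isClassFunction_GG ψ), ← sum_U, ← sum_U, mul_left_comm,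
          ← Units.val_one (α := Matrix _ _ F)]
        simp only [res_GG ψ hψ (show j + 1 + (k + 1) = l + 1 by omega), cl_edM (isClassFunction_GG ψ),
          mul_sum, mul_assoc]
      rw [aN_succ _ _ hψ, ih _ (by omega), this, sum_range_succ _ (k + 1),
        show l - (k + 1) = j by omega, GG_one (l := k + 1), prod_Ico_succ_top (by omega), GG_one]
      ring
  have h := key l 0 rfl
  rw [aN_zero, ← Units.val_one (α := Matrix _ _ F), cl_edM (isClassFunction_GG ψ), GG_one, GG_one,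
    prod_Ico_succ_top (by omega), mul_right_inj' (prod_ne_zero_iff.2 fun i hi => sub_ne_zero.2 (by
      exact_mod_cast (Nat.one_lt_pow (by have := mem_Ico.1 hi; omega) Fintype.one_lt_card).ne'))] at h
  rw [h, ← sum_range_reflect]
  rfl

end CfsgLib.Cusp
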