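import Cfsg.Agent.Lib.Cusp.Gen
import Cfsg.Agent.Lib.MatConj.WallCong

/-!
# Harish-Chandra restriction for general linear groups
-/

set_option autoImplicit false

namespace CfsgLib.Cusp

open Cfsg CfsgLib.Char CfsgLib.MatConj Finset Matrix
open scoped ComplexConjugate BigOperators

variable {F : Type*} [Field F] {ι κ m m' : Type} [Fintype ι] [DecidableEq ι] [Fintype κ]
  [DecidableEq κ] [Fintype m] [DecidableEq m] [Fintype m'] [DecidableEq m'] {a b n : ℕ}

/-- Similarity classes of matrices. -/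
abbrev Cls (F : Type*) [Field F] : Type _ := Multiset (Polynomial F × ℕ)

theorem edM_submatrix (e : κ ≃ ι) (A : Matrix ι ι F) : edM (A.submatrix e e) = edM A :=
  edM_reindex e.symm A

omit [Fintype ι] [DecidableEq ι] in
theorem edM_submatrix_congr {f : m → ι} {f' : m' → ι} (h : f.Injective) (h' : f'.Injective)
    (hr : Set.range f = Set.range f') (A : Matrix ι ι F) :
    edM (A.submatrix f f) = edM (A.submatrix f' f') := by
  rw [← edM_submatrix ((Equiv.ofInjective f h).trans ((Equiv.setCongr hr).trans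
    (Equiv.ofInjective f' h').symm))]
  congr 1
  ext
  simp [Equiv.apply_ofInjective_symm]

theorem exists_GL {A : Matrix ι ι F} : (∃ g : GL (Fin n) F, edM g.1 = edM A) ↔
    IsUnit A ∧ Fintype.card ι = n := by
  refine ⟨fun ⟨g, h⟩ => ⟨(isUnit_iff_edM A).2 (h ▸ (isUnit_iff_edM _).1 g.isUnit), ?_⟩, fun h => ?_⟩
  · rw [card_eq_sum_edM A, ← h, ← card_eq_sum_edM, Fintype.card_fin]
  · have e := (Fintype.equivFinOfCardEq h.2).symm
    exact ⟨((isUnit_submatrix_equiv e e).2 h.1).unit, edM_submatrix e A⟩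

open scoped _root_.Classical in
/-- A function on `GL n` as a function of the similarity class. -/
noncomputable def cl (χ : GL (Fin n) F → ℂ) (s : Cls F) : ℂ :=
  if h : ∃ g : GL (Fin n) F, edM g.1 = s then χ h.choose else 0

theorem cl_edM {χ : GL (Fin n) F → ℂ} (hχ : IsClassFunction _ χ) (g : GL (Fin n) F) :
    cl χ (edM g.1) = χ g := by
  have h : ∃ g' : GL (Fin n) F, edM g'.1 = edM g.1 := ⟨g, rfl⟩
  rw [cl, dif_pos h, classFun_eq_of_isConj hχ (isConj_GL_iff_edM.2 h.choose_spec)]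

theorem of_cl_ne_zero {χ : GL (Fin n) F → ℂ} {A : Matrix ι ι F} (h : cl χ (edM A) ≠ 0) :
    IsUnit A ∧ Fintype.card ι = n :=
  exists_GL.1 (not_not.1 fun h' => h (dif_neg h'))

theorem cl_comp (Φ : Cls F → ℂ) {A : Matrix ι ι F} (h : Fintype.card ι = n)
    (h0 : ¬ IsUnit A → Φ (edM A) = 0) : cl (fun g : GL (Fin n) F => Φ (edM g.1)) (edM A) = Φ (edM A) := by
  by_cases hA : IsUnit A
  · have h1 := exists_GL.2 ⟨hA, h⟩
    rw [cl, dif_pos h1, h1.choose_spec]
  · rw [h0 hA, cl, dif_neg fun h => hA (exists_GL.1 h).1]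

theorem cl_sum {T : Type*} (s : Finset T) (c : T → ℂ) (χ : T → GL (Fin n) F → ℂ) (t : Cls F) :
    cl (∑ i ∈ s, c i • χ i) t = ∑ i ∈ s, c i * cl (χ i) t := by
  simp only [cl]
  split_ifs <;> simp

theorem isClassFunction_edM (Φ : Cls F → ℂ) : IsClassFunction (GL ι F) fun g => Φ (edM g.1) :=
  isClassFunction_iff_isConj.2 fun _ _ h => congrArg Φ (isConj_GL_iff_edM.1 h)

/-- Reindexing as an isomorphism of general linear groups. -/
def rx (e : ι ≃ κ) : GL ι F ≃* GL κ F := Units.mapEquiv (reindexAlgEquiv F F e).toMulEquiv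

theorem edM_rx (e : ι ≃ κ) (g : GL ι F) : edM (rx e g).1 = edM g.1 := edM_reindex e g.1

theorem isCharacter_cl {χ : GL (Fin n) F → ℂ} (hχ : IsCharacter _ χ) (h : Fintype.card ι = n) :
    IsCharacter (GL ι F) fun g => cl χ (edM g.1) := by
  have := isCharacter_comp (rx (F := F) (Fintype.equivFinOfCardEq h)).toMonoidHom hχ
  simp only [← cl_edM (isClassFunction_of_isCharacter hχ)] at this
  convert this using 3 with g
  exact (edM_rx (Fintype.equivFinOfCardEq h) g).symm

open scoped _root_.Classical in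
/-- A matrix in a given similarity class. -/
noncomputable def rep (s : Cls F) : Σ k, Matrix (Fin k) (Fin k) F :=
  if h : ∃ x : Σ k, Matrix (Fin k) (Fin k) F, edM x.2 = s then h.choose else ⟨0, 0⟩

theorem edM_rep (A : Matrix ι ι F) : edM (rep (edM A)).2 = edM A := by
  have h : ∃ x : Σ k, Matrix (Fin k) (Fin k) F, edM x.2 = edM A :=
    ⟨⟨_, _⟩, edM_reindex (Fintype.equivFin ι) A⟩
  rw [rep, dif_pos h, h.choose_spec]

variable [Fintype F] [DecidableEq F]

theorem expect_GL (h : Fintype.card ι = n) (Φ : Cls F → ℂ) :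
    𝔼 g : GL ι F, Φ (edM g.1) = 𝔼 g : GL (Fin n) F, Φ (edM g.1) :=
  Fintype.expect_equiv (rx (Fintype.equivFinOfCardEq h)).toEquiv _ _ fun g =>
    congrArg Φ (edM_rx _ g).symm

theorem sum_GL {Φ : Matrix ι ι F → ℂ} (h : ∀ A, Φ A ≠ 0 → IsUnit A) :
    ∑ g : GL ι F, Φ g.1 = ∑ A, Φ A :=
  Fintype.sum_of_injective Units.val Units.val_injective _ _
    (fun A hA => not_not.1 fun h' => hA (h A h')) fun _ => rfl

theorem classInner_eq_expect {G : Type*} [Group G] [Fintype G] (φ ψ : G → ℂ) :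
    classInner φ ψ = 𝔼 g, φ g * conj (ψ g) := by
  rw [classInner, Fintype.expect_eq_sum_div_card, Nat.card_eq_fintype_card, div_eq_inv_mul]

theorem sum_cl_mul (h : Fintype.card ι = n) (α : GL (Fin n) F → ℂ) (hα : IsClassFunction _ α)
    (Φ : Cls F → ℂ) : ∑ A : Matrix ι ι F, conj (cl α (edM A)) * Φ (edM A) =
      Fintype.card (GL ι F) * 𝔼 g : GL (Fin n) F, conj (α g) * Φ (edM g.1) := by
  rw [← sum_GL fun A hA => (of_cl_ne_zero (by simpa using left_ne_zero_of_mul hA)).1,
    ← Fintype.card_mul_expect, expect_GL h fun s => conj (cl α s) * Φ s]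
  simp only [cl_edM hα]

omit [DecidableEq F] in
theorem expect_blocks_congr (f : Cls F → ℂ) {A : Matrix ι ι F} {A' : Matrix κ κ F} {D : Matrix m m F}
    {D' : Matrix m' m' F} (h : edM A = edM A') (h' : edM D = edM D') :
    𝔼 φ, f (edM (fromBlocks A φ 0 D)) = 𝔼 φ, f (edM (fromBlocks A' φ 0 D')) := by
  obtain ⟨_, P, P', h1, h2, h3, -⟩ := exists_transp h 0
  obtain ⟨_, R, R', h4, h5, h6, -⟩ := exists_transp h' 0
  refine Fintype.expect_equiv ⟨fun φ => P' * φ * R, fun φ => P * φ * R', fun φ => ?_, fun φ => ?_⟩ _ _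
    fun φ => congrArg f (Transp.edM_eq (G := 0) ⟨fromBlocks P 0 0 R, fromBlocks P' 0 0 R', ?_, ?_, ?_, rfl⟩)
  · simp [Matrix.mul_assoc, h4, ← Matrix.mul_assoc P, h1]
  · simp [Matrix.mul_assoc, h5, ← Matrix.mul_assoc P', h2]
  · simp [fromBlocks_multiply, h1, h4]
  · simp [fromBlocks_multiply, h2, h5]
  · simp [fromBlocks_multiply, h3, h6, ← Matrix.mul_assoc, h1]

/-- Harish-Chandra restriction. -/
noncomputable def res (f : Cls F → ℂ) (s t : Cls F) : ℂ :=
  𝔼 φ, f (edM (fromBlocks (rep s).2 φ 0 (rep t).2))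

omit [DecidableEq F] in
theorem res_edM (f : Cls F → ℂ) (A : Matrix ι ι F) (D : Matrix m m F) :
    res f (edM A) (edM D) = 𝔼 φ, f (edM (fromBlocks A φ 0 D)) :=
  expect_blocks_congr f (edM_rep A) (edM_rep D)

omit [DecidableEq F] in
theorem res_comm (f : Cls F → ℂ) (s t : Cls F) : res f s t = res f t s := by
  rw [res, res, expect_blocks_congr f (edM_transpose (rep t).2).symm (edM_transpose (rep s).2).symm]
  refine Fintype.expect_equiv (transposeAddEquiv _ _ F).toEquiv _ _ fun φ => congrArg f ?_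
  rw [← edM_transpose, ← edM_submatrix (Equiv.sumComm _ _)]
  simp [fromBlocks_transpose]

omit [DecidableEq F] in
theorem res_assoc (f : Cls F → ℂ) (s t u : Cls F) :
    res (res f s) t u = res (res f · u) s t := by
  have h1 : ∀ A : Matrix (Fin (rep t).1 ⊕ Fin (rep u).1) _ F, res f s (edM A) =
    𝔼 φ, f (edM (fromBlocks (rep s).2 φ 0 A)) := fun A => expect_blocks_congr f rfl (edM_rep A)
  have h2 : ∀ A : Matrix (Fin (rep s).1 ⊕ Fin (rep t).1) _ F, res f (edM A) u =
    𝔼 φ, f (edM (fromBlocks A φ 0 (rep u).2)) := fun A => expect_blocks_congr f (edM_rep A) rfl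
  rw [res, res]
  simp only [h1, h2, ← expect_product', univ_product_univ]
  refine Fintype.expect_equiv ⟨fun x => (x.2.toCols₁, fromRows x.2.toCols₂ x.1),
    fun x => (x.2.toRows₂, fromCols x.1 x.2.toRows₁), fun x => by simp, fun x => by simp⟩ _ _
    fun x => congrArg f ?_
  rw [← edM_submatrix (Equiv.sumAssoc _ _ _)]
  congr 1
  ext (((i | i) | i)) (((j | j) | j)) <;> simp

omit [DecidableEq F] in
theorem res_left_comm (f : Cls F → ℂ) (s t u : Cls F) : res (res f s) t u = res (res f t) s u := by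
  rw [res_assoc, res_comm, res_assoc]

omit [DecidableEq F] in
theorem res_cl_ne_zero {f : GL (Fin n) F → ℂ} {A : Matrix ι ι F} {D : Matrix m m F}
    (h : res (cl f) (edM A) (edM D) ≠ 0) :
    IsUnit A ∧ IsUnit D ∧ Fintype.card ι + Fintype.card m = n := by
  obtain ⟨φ, -, h⟩ := exists_ne_zero_of_expect_ne_zero (res_edM (cl f) A D ▸ h)
  simpa [isUnit_fromBlocks_zero₂₁, and_assoc] using of_cl_ne_zero h

/-- The component of the Harish-Chandra restriction of `f` along `α`. -/
noncomputable def st (b : ℕ) (α : GL (Fin a) F → ℂ) (f : GL (Fin n) F → ℂ) (D : GL (Fin b) F) : ℂ :=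
  𝔼 A : GL (Fin a) F, conj (α A) * res (cl f) (edM A.1) (edM D.1)

theorem isClassFunction_st (α : GL (Fin a) F → ℂ) (f : GL (Fin n) F → ℂ) :
    IsClassFunction _ (st b α f) :=
  isClassFunction_edM fun t => 𝔼 A : GL (Fin a) F, conj (α A) * res (cl f) (edM A.1) t

theorem cl_st (α : GL (Fin a) F → ℂ) (f : GL (Fin n) F → ℂ) (D : Matrix ι ι F)
    (h : Fintype.card ι = b) :
    cl (st b α f) (edM D) = 𝔼 A : GL (Fin a) F, conj (α A) * res (cl f) (edM A.1) (edM D) :=
  cl_comp (fun t => 𝔼 A : GL (Fin a) F, conj (α A) * res (cl f) (edM A.1) t) h fun hD =>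
    expect_eq_zero fun _ _ => by rw [not_not.1 fun h => hD (res_cl_ne_zero h).2.1, mul_zero]

theorem st_st {c : ℕ} (α : GL (Fin a) F → ℂ) (β : GL (Fin b) F → ℂ) (f : GL (Fin n) F → ℂ) :
    st c α (st (a + c) β f) = st c β (st (b + c) α f) := by
  have h : ∀ {a b} (α : GL (Fin a) F → ℂ) (β : GL (Fin b) F → ℂ) C, st c α (st (a + c) β f) C =
      𝔼 A : GL (Fin a) F, 𝔼 B : GL (Fin b) F, conj (α A) * conj (β B) *
        res (res (cl f) (edM B.1)) (edM A.1) (edM C.1) := fun {a b} α β C => by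
    refine expect_congr rfl fun A _ => ?_
    have := fun φ => cl_st (b := a + c) β f (fromBlocks A.1 φ 0 C.1) (by simp)
    simp only [res_edM _ A.1, this, mul_expect, mul_assoc]
    exact expect_comm _ _ _
  funext C
  rw [h, h, expect_comm]
  simp only [res_left_comm _ (edM (Units.val _ : Matrix (Fin a) _ F)), mul_comm (conj (α _))]

/-- The multiplicity of `α ⊗ β` in the Harish-Chandra restriction of `f`. -/
noncomputable def mult (α : GL (Fin a) F → ℂ) (β : GL (Fin b) F → ℂ) (f : GL (Fin n) F → ℂ) : ℂ :=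
  classInner (st b α f) β

theorem mult_comm (α : GL (Fin a) F → ℂ) (β : GL (Fin b) F → ℂ) (f : GL (Fin n) F → ℂ) :
    mult α β f = mult β α f := by
  simp only [mult, classInner_eq_expect, st, expect_mul]
  rw [expect_comm]
  exact expect_congr rfl fun _ _ => expect_congr rfl fun _ _ => by rw [res_comm]; ring

theorem mult_sum {T : Type*} (s : Finset T) (c : T → ℂ) (f : T → GL (Fin n) F → ℂ)
    (α : GL (Fin a) F → ℂ) (β : GL (Fin b) F → ℂ) :
    mult α β (∑ i ∈ s, c i • f i) = ∑ i ∈ s, c i * mult α β (f i) := by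
  simp only [mult, classInner_eq_expect, st, res, cl_sum, expect_sum_comm, mul_sum, sum_mul,
    mul_expect, expect_mul, mul_left_comm, mul_assoc]

omit [Field F] [DecidableEq F] in
theorem sum_blocks {k k' : Type} [Fintype k] [DecidableEq k] [Fintype k'] [DecidableEq k']
    (e : m ⊕ m' ≃ ι) (e' : k ⊕ k' ≃ κ) (Φ : Matrix ι κ F → ℂ) :
    ∑ g, Φ g = ∑ A, ∑ D, ∑ B, ∑ C, Φ ((fromBlocks A B C D).submatrix e.symm e'.symm) := by
  simp only [← Fintype.sum_prod_type']
  exact Fintype.sum_equiv ⟨fun g => ((g.submatrix e e').toBlocks₁₁, (g.submatrix e e').toBlocks₂₂,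
    (g.submatrix e e').toBlocks₁₂, (g.submatrix e e').toBlocks₂₁),
    fun x => (fromBlocks x.1 x.2.2.1 x.2.2.2 x.2.1).submatrix e.symm e'.symm,
    fun g => by simp [fromBlocks_toBlocks], fun x => by simp⟩ _ _ fun g => by simp [fromBlocks_toBlocks]

end CfsgLib.Cusp
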