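import Cfsg.Agent.Lib.Cusp.Irr

/-!
# Whittaker models for general linear groups: multiplicity one
-/

set_option autoImplicit false
set_option linter.unusedSectionVars false

namespace CfsgLib.Cusp

open Cfsg CfsgLib.Char CfsgLib.MatConj Finset Matrix
open scoped ComplexConjugate BigOperators

variable {F : Type*} [Field F] [Fintype F] [DecidableEq F] {ι κ m m' k k' : Type} [Fintype ι]
  [DecidableEq ι] [Fintype κ] [DecidableEq κ] [Fintype m] [DecidableEq m] [Fintype m']
  [DecidableEq m'] [Fintype k] [DecidableEq k] [Fintype k'] [DecidableEq k'] {a b n : ℕ}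

theorem perm_run {T : Type*} (σ : Equiv.Perm (Fin n)) (s : Fin n → T)
    (h : ∀ i j : Fin n, i.1 + 1 = j → σ j < σ i → (σ j).1 + 1 = σ i ∧ s i = s j) (d : ℕ) :
    ∀ i j : Fin n, i.1 + d = j → σ j ≤ σ i → ∀ m, i ≤ m → m ≤ j →
      (σ m).1 + m = σ i + i ∧ s m = s i := by
  induction d with
  | zero => intro i j h1 _ m h2 h3; rw [show m = i from Fin.ext (by omega)]; exact ⟨rfl, rfl⟩
  | succ d ih =>
    intro i j h1 h2 m h3 h4
    obtain ⟨i', hi⟩ : ∃ i' : Fin n, i.1 + 1 = i' := ⟨⟨i + 1, by omega⟩, rfl⟩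
    have h5 : σ j ≠ σ i := σ.injective.ne fun h => by omega
    rcases lt_or_gt_of_ne (σ.injective.ne (show i' ≠ i from fun h => by omega)) with h6 | h6
    · obtain rfl | h7 := h3.eq_or_lt
      · exact ⟨rfl, rfl⟩
      · have := ih i' j (by omega) (by have := (h i i' hi h6).1; omega) m (by omega) h4
        exact ⟨by have := (h i i' hi h6).1; omega, this.2.trans (h i i' hi h6).2.symm⟩
    · have h7 := ih i' j (by omega) (by omega)
      have h8 := (h7 j (by omega) le_rfl).1
      have h9 := (h7 ⟨j + σ j - σ i, by omega⟩ (by rw [Fin.le_def]; dsimp only; omega)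
        (by rw [Fin.le_def]; dsimp only; omega)).1
      have := congrArg Fin.val (σ.injective (Fin.ext (by dsimp only at h9; omega) :
        σ ⟨j + σ j - σ i, by omega⟩ = σ i))
      dsimp only at this
      omega

theorem perm_invol {T : Type*} (σ : Equiv.Perm (Fin n)) (s : Fin n → T)
    (h : ∀ i j : Fin n, i.1 + 1 = j → σ j < σ i → (σ j).1 + 1 = σ i ∧ s i = s j) (j : Fin n) :
    σ (σ j) = j ∧ s (σ j) = s j := by
  have key : ∀ a ≤ n, ∃ c, a ≤ c ∧ ∀ j : Fin n, j.1 < c →
      (σ j).1 < c ∧ σ (σ j) = j ∧ s (σ j) = s j := fun a => by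
    induction a with
    | zero => exact fun _ => ⟨0, le_rfl, fun _ h => absurd h (Nat.not_lt_zero _)⟩
    | succ a ih =>
      intro ha
      obtain ⟨c, h1, h2⟩ := ih (by omega)
      obtain rfl | h3 := h1.eq_or_lt; swap
      · exact ⟨c, h3, h2⟩
      obtain ⟨A, rfl⟩ : ∃ A : Fin n, A.1 = a := ⟨⟨a, ha⟩, rfl⟩
      obtain ⟨b, rfl⟩ := σ.surjective A
      have h3 : σ b ≤ b := not_lt.1 fun h => lt_irrefl _ (h2 b h).1
      have h4 : σ b ≤ σ (σ b) := not_lt.1 fun h =>
        (h2 _ h).1.ne (congrArg Fin.val (σ.injective (h2 _ h).2.1))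
      have h5 := perm_run σ s h (b - σ b) (σ b) b (by omega) h4
      have h6 := (h5 b h3 le_rfl).1
      refine ⟨b + 1, by omega, fun j hj => ?_⟩
      by_cases h7 : j < σ b
      · exact ⟨by have := (h2 j h7).1; omega, (h2 j h7).2⟩
      have h8 := h5 j (by omega) (by omega)
      have h9 := h5 (σ j) (by omega) (by omega)
      exact ⟨by omega, Fin.ext (by omega), h9.2.trans h8.2.symm⟩
  obtain ⟨c, h1, h2⟩ := key n le_rfl
  exact (h2 j (by omega)).2

/-- Upper unitriangular matrices. -/
def Uni (M : Matrix (Fin n) (Fin n) F) : Prop := ∀ i j, ¬ i < j → M i j = if i = j then 1 else 0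

noncomputable instance (M : Matrix (Fin n) (Fin n) F) : Decidable (Uni M) := Classical.dec _

theorem Uni.isUnit {M : Matrix (Fin n) (Fin n) F} (h : Uni M) : IsUnit M := by
  rw [isUnit_iff_isUnit_det, det_of_upperTriangular fun i j hij => (h i j hij.not_gt).trans
    (if_neg hij.ne'), prod_eq_one fun i _ => (h i i (lt_irrefl _)).trans (if_pos rfl)]
  exact isUnit_one

theorem Uni.mul_apply {g h : Matrix (Fin n) (Fin n) F} (hg : Uni g) (hh : Uni h) (i j : Fin n)
    (hij : j.1 ≤ i + 1) : (g * h) i j = g i j + h i j - if i = j then 1 else 0 := by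
  have : ∀ k, g i k * h k j = (if k = j then g i j else 0) + (if k = i then h i j else 0) -
      if k = i then if i = j then 1 else 0 else 0 := fun k => by
    by_cases h1 : k = i
    · subst h1
      by_cases h2 : k = j
      · subst h2; simp [hg k k, hh k k]
      · simp [h2, hg k k]
    · by_cases h2 : k = j
      · subst h2; simp [h1, hh k k]
      · by_cases h3 : i < k
        · simp [h1, h2, hh k j (by omega)]
        · simp [h1, h2, hg i k h3, Ne.symm h1]
  simp only [Matrix.mul_apply, this, sum_sub_distrib, sum_add_distrib, sum_ite_eq', mem_univ, if_true]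

variable (F n) in
/-- Upper unitriangular matrices as a monoid. -/
def Um : Submonoid (Matrix (Fin n) (Fin n) F) where
  carrier := {g | Uni g}
  one_mem' _ _ _ := rfl
  mul_mem' {g h} hg hh i j hij := by rw [Uni.mul_apply hg hh i j (by omega), hg i j hij, hh i j hij]; ring

variable (F n) in
/-- The upper unitriangular group. -/
def U : Subgroup (GL (Fin n) F) where
  toSubmonoid := (Um F n).comap (Units.coeHom _)
  inv_mem' {g} hg := Submonoid.powers_le.2 hg (mem_powers_iff_mem_zpowers.2 (by simp))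

noncomputable instance : Fintype (U F n) := Fintype.ofFinite _

/-- The sum of the entries just above the diagonal. -/
def sd (M : Matrix (Fin n) (Fin n) F) : F := ∑ i, ∑ j, if i.1 + 1 = j.1 then M i j else 0

variable (ψ : AddChar F ℂ)

variable (n) in
/-- A nondegenerate character of the unitriangular group. -/
def uc : U F n →* ℂ where
  toFun g := ψ (sd g.1.1)
  map_one' := by
    rw [← ψ.map_zero_eq_one]
    exact congrArg ψ (sum_eq_zero fun i _ => sum_eq_zero fun j _ => ite_eq_right_iff.2 fun h =>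
      one_apply_ne fun h' => by omega)
  map_mul' g h := by
    rw [← ψ.map_add_eq_mul, sd, sd, sd, ← sum_add_distrib]
    refine congrArg ψ (sum_congr rfl fun i _ => ?_)
    rw [← sum_add_distrib]
    refine sum_congr rfl fun j _ => ?_
    split_ifs with hij
    · exact (Uni.mul_apply g.2 h.2 i j hij.ge).trans (by rw [if_neg fun h => by omega, sub_zero]; rfl)
    · rw [add_zero]

theorem sd_add_single (M : Matrix (Fin n) (Fin n) F) (i j : Fin n) (c : F) :
    sd (M + single i j c) = sd M + if i.1 + 1 = j then c else 0 := by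
  simp only [sd, Matrix.add_apply, ite_add_zero, sum_add_distrib, single_apply, ite_and]
  congr 1
  rw [sum_eq_single i (fun k _ hk => by simp [hk.symm]) (by simp), sum_eq_single j
    (fun k _ hk => by simp [hk.symm]) (by simp)]
  simp

theorem uni_add_single {M : Matrix (Fin n) (Fin n) F} {i j : Fin n} (h : i < j) (c : F) :
    Uni (M + single i j c) ↔ Uni M :=
  forall₃_congr fun k l hkl => by
    rw [Matrix.add_apply, single_apply_of_ne _ _ _ _ _ (by rintro ⟨rfl, rfl⟩; exact hkl h), add_zero]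

/-- Root elements. -/
noncomputable def rt {i j : Fin n} (h : i < j) (c : F) : U F n :=
  ⟨((uni_add_single h c).2 (Um F n).one_mem).isUnit.unit, (uni_add_single h c).2 (Um F n).one_mem⟩

theorem uc_rt {i j : Fin n} (h : i < j) (c : F) :
    uc n ψ (rt h c) = ψ (if i.1 + 1 = j then c else 0) := by
  have := (uc n ψ).map_one
  change ψ (sd 1) = 1 at this
  change ψ (sd (1 + single i j c)) = _
  rw [sd_add_single, ψ.map_add_eq_mul, this, one_mul]

theorem exists_diag {b : GL (Fin n) F} (hb : b ∈ GLFlag.Par F id) : ∃ t : GL (Fin n) F,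
    t.1.IsDiag ∧ b * t⁻¹ ∈ U F n ∧ t⁻¹ * b ∈ U F n := by
  have h0 : ∀ i, b.1 i i ≠ 0 := fun i => prod_ne_zero_iff.1 ((det_of_upperTriangular
    fun i j h => GLFlag.mem_Par.1 hb i j h).symm.trans_ne b.det_ne_zero) i (mem_univ _)
  refine ⟨⟨diagonal fun i => b.1 i i, diagonal fun i => (b.1 i i)⁻¹, by simp [h0], by simp [h0]⟩,
    isDiag_diagonal _, fun i j hij => ?_, fun i j hij => ?_⟩
  all_goals
    obtain rfl | h := (not_lt.1 hij).eq_or_lt
    · simp [h0]
    · simp [GLFlag.mem_Par.1 hb i j h, h.ne']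

theorem bruhat' (x : GL (Fin n) F) :
    ∃ u ∈ U F n, ∃ w, ∃ b ∈ GLFlag.Par F id, x = u * GLFlag.pmat F w * b := by
  obtain ⟨w, b, hb, b', hb', rfl⟩ := GLFlag.bruhat x
  obtain ⟨t, h1, h2, -⟩ := exists_diag hb
  refine ⟨_, h2, w, GLFlag.pmat F w⁻¹ * t * (GLFlag.pmat F w⁻¹)⁻¹ * b', mul_mem (GLFlag.mem_Par.2
    fun i j h => ?_) hb', by simp only [map_inv]; group⟩
  rw [pmat_conj]
  exact h1 ((Equiv.injective _).ne (ne_of_gt h))

/-- Transposition in the second diagonal. -/
def atr (g : GL (Fin n) F) : GL (Fin n) F :=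
  ⟨g.1ᵀ.submatrix Fin.revPerm Fin.revPerm, g⁻¹.1ᵀ.submatrix Fin.revPerm Fin.revPerm,
    by simp [← transpose_mul], by simp [← transpose_mul]⟩

theorem atr_apply (g : GL (Fin n) F) (i j : Fin n) : (atr g).1 i j = g.1 j.rev i.rev := rfl

theorem atr_mem {g : GL (Fin n) F} (h : g ∈ U F n) : atr g ∈ U F n := fun i j hij =>
  (h j.rev i.rev (by simpa using hij)).trans (by simp [eq_comm])

/-- The multiplicity of the nondegenerate character. -/
noncomputable def W (f : GL (Fin n) F → ℂ) : ℂ := classInner (fun u : U F n => f u) (uc n ψ)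

theorem W_irr (hψ : ψ.IsPrimitive) {χ : GL (Fin n) F → ℂ} (hχ : IsIrrCharacter _ χ) :
    W ψ χ = 0 ∨ W ψ χ = 1 := by
  refine gelfand (uc n ψ) atr (fun x y => Units.ext (by simp [atr])) (Function.Involutive.toPerm
    (fun u => ⟨atr u, atr_mem u.2⟩) fun u => Subtype.ext (Units.ext (by ext; simp [atr_apply]))) (fun _ => rfl)
    (fun u => congrArg ψ ?_) (fun x => ?_) hχ
  · rw [sd, sd, sum_comm]
    exact Fintype.sum_equiv Fin.revPerm _ _ fun i => Fintype.sum_equiv Fin.revPerm _ _ fun j =>
      if_congr (by simp; omega) rfl rfl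
  obtain ⟨u, hu, w, b, hb, rfl⟩ := bruhat' x
  obtain ⟨t, h1, -, h2⟩ := exists_diag hb
  obtain ⟨N, hN⟩ : ∃ N, N = GLFlag.pmat F w * t := ⟨_, rfl⟩
  have h3 : ∀ i j, N.1 i j = if i = w j then t.1 j j else 0 := fun i j => by
    rw [hN, Units.val_mul, ← h1.diagonal_diag]; simp [GLFlag.pmat_apply]
  have h0 : ∀ i, t.1 i i ≠ 0 := fun i => prod_ne_zero_iff.1 ((det_of_upperTriangular
    fun i j h => h1 (ne_of_gt h)).symm.trans_ne t.det_ne_zero) i (mem_univ _)
  refine ⟨⟨u, hu⟩, ⟨_, h2⟩, N, by rw [hN]; group, or_iff_not_imp_right.2 fun h4 => ?_⟩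
  have h5 := perm_invol (w.trans Fin.revPerm) (fun i => t.1 i i) fun i j hij h => by
    have h6 : w i < w j := by simpa using h
    have h7 := fun c : F => not_not.1 fun h => h4 ⟨rt h6 (c * (t.1 i i / t.1 j j)),
      rt (show i < j by omega) c, Units.ext ?_, h⟩
    · have h8 : (if (w i).1 + 1 = w j then t.1 i i / t.1 j j else 0) - 1 = 0 :=
        not_not.1 fun h => hψ h (AddChar.ext _ _ fun c => ?_)
      · split_ifs at h8 with h9
        · exact ⟨by simp; omega, (div_eq_one_iff_eq (h0 j)).1 (sub_eq_zero.1 h8)⟩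
        · simp at h8
      have := h7 c
      rw [uc_rt, uc_rt, if_pos hij] at this
      rw [AddChar.mulShift_apply, sub_mul, AddChar.map_sub_eq_div, one_mul, ← this, ite_mul,
        zero_mul, mul_comm, this, div_self (ψ.val_isUnit _).ne_zero, AddChar.one_apply]
    · change (1 + single _ _ _) * _ = _ * (1 + single _ _ _)
      rw [add_mul, mul_add, one_mul, mul_one]
      congr 1
      ext k l
      by_cases hk : k = w i <;> by_cases hl : l = j <;>
        simp [hk, hl, h3, h0, mul_right_comm _ c, mul_comm c, eq_comm (a := j)]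
  refine Units.ext (Matrix.ext fun i j => ?_)
  rw [atr_apply, h3, h3]
  by_cases h : i = w j
  · rw [if_pos h, h]
    exact (if_pos (Fin.rev_eq_iff.2 (h5 j).1.symm)).trans (h5 j).2
  · rw [if_neg h, if_neg fun h' => h ?_]
    rw [← Fin.rev_rev j, h']
    exact Fin.rev_injective (h5 _).1.symm

end CfsgLib.Cusp
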